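import Cfsg.Agent.ZJFail.Push
import Cfsg.Agent.EvenLocal.ZJClosed
import Cfsg.Agent.EvenLocal.Involved

/-!
If `Z(J(S))` does not control strong fusion, `N(Z(J(S)))` involves `F(p)`.
-/

set_option autoImplicit false
set_option linter.style.haveILetI false
set_option linter.unusedSectionVars false
set_option maxHeartbeats 800000

namespace Cfsg.Agent.ZJFail

open Subgroup Cfsg.Agent.Fusion
open scoped commutatorElement

variable {p : ℕ} [hp : Fact p.Prime]

section

variable {G : Type*} [Group G] [Finite G]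

/-- The order of the largest abelian subgroups of `Q`. -/
noncomputable def abOrd (Q : Subgroup G) : ℕ := Nat.card (Modules.maxAbIn_nonempty Q).some

theorem abOrd_eq {Q A : Subgroup G} (hA : A ∈ Modules.maxAbIn Q) : Nat.card A = abOrd Q :=
  Modules.maxAbIn_card_eq hA (Modules.maxAbIn_nonempty Q).some_mem

theorem abOrd_mono {Q Q' : Subgroup G} (h : Q ≤ Q') : abOrd Q ≤ abOrd Q' := by
  obtain ⟨A, hA⟩ := Modules.maxAbIn_nonempty Q
  obtain ⟨A', hA'⟩ := Modules.maxAbIn_nonempty Q'
  rw [← abOrd_eq hA, ← abOrd_eq hA']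
  exact hA'.2.2 A (hA.1.trans h) hA.2.1

theorem abOrd_map {G' : Type*} [Group G'] [Finite G'] {f : G →* G'} (hf : Function.Injective f)
    (Q : Subgroup G) : abOrd (Q.map f) = abOrd Q := by
  obtain ⟨A, hA⟩ := Modules.maxAbIn_nonempty Q
  rw [← abOrd_eq hA, ← abOrd_eq (A := A.map f)
    (by rw [Modules.maxAbIn_map hf]; exact ⟨A, hA, rfl⟩), card_map_of_injective hf]

theorem maxAbIn_mono_of_eq {Q Q' A : Subgroup G} (h : Q ≤ Q') (he : abOrd Q = abOrd Q')
    (hA : A ∈ Modules.maxAbIn Q) : A ∈ Modules.maxAbIn Q' := by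
  refine ⟨hA.1.trans h, hA.2.1, fun C hC hC' => ?_⟩
  rw [abOrd_eq hA, he]
  obtain ⟨A', hA'⟩ := Modules.maxAbIn_nonempty Q'
  rw [← abOrd_eq hA']
  exact hA'.2.2 C hC hC'

theorem thompson_mono_of_eq {Q Q' : Subgroup G} (h : Q ≤ Q') (he : abOrd Q = abOrd Q') :
    Cfsg.thompsonSubgroupAOf Q ≤ Cfsg.thompsonSubgroupAOf Q' := by
  rw [Modules.thompsonSubgroupAOf_eq_sSup Q]
  exact sSup_le fun A hA => Modules.le_thompsonSubgroupAOf (maxAbIn_mono_of_eq h he hA)

variable (Zi : Subgroup G) [Zi.Normal]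

theorem map_cj (g : G) (D : Subgroup G) :
    (cj g D).map (QuotientGroup.mk' Zi) =
      cj (QuotientGroup.mk' Zi g) (D.map (QuotientGroup.mk' Zi)) := by
  rw [cj, cj, map_map, map_map]
  congr 1

/-- The order of the largest subgroups abelian modulo `Zi`. -/
noncomputable def mA (D : Subgroup G) : ℕ := abOrd (D.map (QuotientGroup.mk' Zi))

/-- The order of the Thompson subgroup modulo `Zi`. -/
noncomputable def mJ (D : Subgroup G) : ℕ :=
  Nat.card (Cfsg.thompsonSubgroupAOf (D.map (QuotientGroup.mk' Zi)))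

theorem mA_cj (g : G) (D : Subgroup G) : mA Zi (cj g D) = mA Zi D := by
  rw [mA, mA, map_cj]
  exact abOrd_map (MulEquiv.injective _) _

theorem mJ_cj (g : G) (D : Subgroup G) : mJ Zi (cj g D) = mJ Zi D := by
  rw [mJ, mJ, map_cj, show cj (QuotientGroup.mk' Zi g) (D.map (QuotientGroup.mk' Zi)) =
    (D.map (QuotientGroup.mk' Zi)).map (MulAut.conj (QuotientGroup.mk' Zi g)).toMonoidHom from rfl,
    ← Modules.map_thompsonSubgroupAOf (MulEquiv.injective _),
    card_map_of_injective (MulEquiv.injective _)]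

variable (S : Sylow p G)

/-- A subgroup of `S` over `Zi` with unrealised fusion. -/
def Bad (D : Subgroup G) : Prop :=
  Zi ≤ D ∧ D ≤ (S : Subgroup G) ∧ ∃ g, cj g D ≤ (S : Subgroup G) ∧ ¬ Realised (nz S) D g

/-- A bad subgroup which is largest in order of abelian subgroups, Thompson subgroup, order. -/
def Top (T : Subgroup G) : Prop :=
  Bad Zi S T ∧ ∀ D, Bad Zi S D → mA Zi D ≤ mA Zi T ∧
    (mA Zi D = mA Zi T → mJ Zi D ≤ mJ Zi T ∧ (mJ Zi D = mJ Zi T → Nat.card D ≤ Nat.card T))

variable {Zi S}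

theorem exists_top {D : Subgroup G} (hD : Bad Zi S D) : ∃ T, Top Zi S T := by
  obtain ⟨D1, h1, h1max⟩ := Set.exists_max_image {D | Bad Zi S D} (mA Zi) (Set.toFinite _) ⟨D, hD⟩
  obtain ⟨D2, ⟨h2, h2a⟩, h2max⟩ := Set.exists_max_image {D | Bad Zi S D ∧ mA Zi D = mA Zi D1}
    (mJ Zi) (Set.toFinite _) ⟨D1, h1, rfl⟩
  obtain ⟨D3, ⟨h3, h3a, h3j⟩, h3max⟩ := Set.exists_max_image
    {D | Bad Zi S D ∧ mA Zi D = mA Zi D1 ∧ mJ Zi D = mJ Zi D2} (fun D => Nat.card D)
    (Set.toFinite _) ⟨D2, h2, h2a, rfl⟩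
  exact ⟨D3, h3, fun E hE => ⟨h3a ▸ h1max E hE, fun he => ⟨h3j ▸ h2max E ⟨hE, he.trans h3a⟩,
    fun hj => h3max E ⟨hE, he.trans h3a, hj.trans h3j⟩⟩⟩⟩

theorem Top.of_le {T T' : Subgroup G} (hT : Top Zi S T) (hT' : Bad Zi S T') {m : G}
    (hm : cj m T ≤ T') : Top Zi S T' ∧ cj m T = T' := by
  have ha : mA Zi T ≤ mA Zi T' := by
    rw [← mA_cj Zi m T]
    exact abOrd_mono (map_mono hm)
  have ha' : mA Zi T' = mA Zi T := le_antisymm (hT.2 T' hT').1 ha
  have hj : mJ Zi T ≤ mJ Zi T' := by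
    rw [← mJ_cj Zi m T]
    refine card_le_of_le (thompson_mono_of_eq (map_mono hm) ?_)
    show mA Zi (cj m T) = mA Zi T'
    rw [mA_cj, ha']
  have hj' : mJ Zi T' = mJ Zi T := le_antisymm ((hT.2 T' hT').2 ha').1 hj
  have hc := ((hT.2 T' hT').2 ha').2 hj'
  have heq : cj m T = T' := eq_of_le_of_card_ge hm (by rw [card_cj]; exact hc)
  refine ⟨⟨hT', fun E hE => ⟨ha' ▸ (hT.2 E hE).1, fun he => ⟨hj' ▸ ((hT.2 E hE).2 (he.trans ha')).1,
    fun hje => ?_⟩⟩⟩, heq⟩
  rw [← heq, card_cj]
  exact ((hT.2 E hE).2 (he.trans ha')).2 (hje.trans hj')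

theorem Top.good {T : Subgroup G} (hT : Top Zi S T) {D : Subgroup G} (hTD : T < D)
    (hDS : D ≤ (S : Subgroup G)) {g : G} (hg : cj g D ≤ (S : Subgroup G)) :
    Realised (nz S) D g := by
  by_contra hn
  have hD : Bad Zi S D := ⟨hT.1.1.trans hTD.le, hDS, g, hg, hn⟩
  have h := (hT.of_le hD (m := 1) (by rw [cj_one]; exact hTD.le)).2
  rw [cj_one] at h
  exact hTD.ne h

variable (Zi S) in
/-- A top subgroup whose normalizer shows the failure and is well placed. -/
structure Loc (T : Subgroup G) (l : G) : Prop where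
  top : Top Zi S T
  mem : l ∈ normalizer (T : Set G)
  bad : ¬ Realised (nz S) T l
  syl : ¬ p ∣ ((S : Subgroup G) ⊓ normalizer (T : Set G)).relIndex (normalizer (T : Set G))

theorem exists_loc {D : Subgroup G} (hD : Bad Zi S D) : ∃ T l, Loc Zi S T l := by
  obtain ⟨T0, hT0⟩ := exists_top hD
  obtain ⟨g, hg, hn⟩ := hT0.1.2.2
  obtain ⟨T, hTS, hTi, ⟨l, hl, hln⟩, m, hm⟩ := exists_unrealised S (Realised (nz S))
    (fun D _ => Realised.of_mem (one_mem _)) (fun D D' g h => Realised.mono h)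
    (fun D a b => Realised.comp) hT0.1.2.1 hg hn
  have hbad : Bad Zi S T := by
    refine ⟨?_, hTS, l, (cj_eq_of_mem hl).le.trans hTS, hln⟩
    rw [← cj_eq_of_normal m Zi]
    exact (cj_mono m hT0.1.1).trans hm
  exact ⟨T, l, (hT0.of_le hbad hm).1, hl, hln, hTi⟩

theorem Loc.lt_normalizer {T : Subgroup G} {l : G} (h : Loc Zi S T l) :
    T < (S : Subgroup G) ⊓ normalizer (T : Set G) := by
  refine lt_normalizer_inf S.2 (lt_of_le_of_ne h.top.1.2.1 fun he => h.bad ?_)
  exact Realised.of_mem (normalizer_le_nz S (he ▸ h.mem))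

/-- The top subgroup contains every element of `Z(J(S))` central in `S` modulo `Zi`. -/
theorem Loc.wmem {T : Subgroup G} {l : G} (h : Loc Zi S T l) (hZiZ : Zi ≤ zj S) {w : G}
    (hw : w ∈ zj S) (hwc : ∀ s ∈ (S : Subgroup G), ⁅s, w⁆ ∈ Zi) : w ∈ T := by
  by_contra hwT
  set π := QuotientGroup.mk' Zi with hπ
  set L := normalizer (T : Set G) with hL
  set R := (S : Subgroup G) ⊓ L with hR
  set K := L ⊓ centralizer (Zi : Set G) ⊓
    (centralizer ((T.map π : Subgroup (G ⧸ Zi)) : Set (G ⧸ Zi))).comap π with hK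
  have hLK : L ≤ normalizer (K : Set G) := by
    refine Modules.normalizes_inf (Modules.normalizes_inf le_normalizer
      (Modules.normalizes_centralizer (fun y _ => normalizer_eq_top (H := Zi) ▸ mem_top y))) ?_
    intro y hy
    refine mem_normalizer_of_forall fun z hz => ?_
    have hy' : π y ∈ normalizer ((T.map π : Subgroup (G ⧸ Zi)) : Set (G ⧸ Zi)) :=
      le_normalizer_map π (mem_map_of_mem π hy)
    rw [mem_comap, map_mul, map_mul, map_inv]
    exact mem_normalizer_conj (Modules.normalizes_centralizer le_rfl hy') hz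
  have hTS := h.top.1.2.1
  have hwS : w ∈ (S : Subgroup G) := zj_le S hw
  have hwL : w ∈ L := mem_normalizer_of_forall fun t ht => by
    have h1 : ⁅t, w⁆ ∈ T := h.top.1.1 (hwc t (hTS ht))
    have e : w * t * w⁻¹ = ⁅t, w⁆⁻¹ * t := by simp [commutatorElement_def, mul_assoc]
    rw [e]
    exact mul_mem (inv_mem h1) ht
  have hwK : w ∈ K := by
    refine ⟨⟨hwL, mem_centralizer_iff.2 fun z hz => zj_comm S z (hZiZ hz) w hw⟩, ?_⟩
    refine mem_comap.2 (mem_centralizer_iff.2 ?_)
    rintro - ⟨t, ht, rfl⟩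
    exact (commute_mk_iff.2 (by simpa [commutatorElement_def] using hwc t (hTS ht))).eq
  have hKL : K ≤ L := inf_le_left.trans inf_le_left
  set P := R ⊓ K with hP
  have hPi : ¬ p ∣ P.relIndex K := not_dvd_relIndex_inf hKL hLK h.syl
  set D := T ⊔ P with hD
  have hTD : T < D := lt_of_le_of_ne le_sup_left fun he =>
    hwT (he ▸ mem_sup_right (⟨⟨hwS, hwL⟩, hwK⟩ : w ∈ P))
  have hDS : D ≤ (S : Subgroup G) := sup_le hTS (inf_le_left.trans inf_le_left)
  set KC := centralizer (T : Set G) ⊓ K with hKC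
  have hsup : K ≤ KC ⊔ P := by
    refine le_sup_of_pow_mem ?_ hPi fun k hk => ?_
    · exact Modules.normalizes_inf (hKL.trans (Modules.normalizes_centralizer le_rfl)) le_normalizer
    · obtain ⟨e, he⟩ := IsPGroup.iff_card.1 (S.2.to_le (hZiZ.trans (zj_le S)) : IsPGroup p Zi)
      refine ⟨e, mem_centralizer_iff.2 fun t ht => ?_, pow_mem hk _⟩
      have hc : Commute (π t) (π k) :=
        mem_centralizer_iff.1 (mem_comap.1 hk.2) _ ⟨t, ht, rfl⟩
      set ζ := k * t * k⁻¹ * t⁻¹ with hζ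
      have hζZ : ζ ∈ Zi := commute_mk_iff.1 hc.symm
      have hkζ : k * ζ * k⁻¹ = ζ := by
        rw [← mem_centralizer_iff.1 hk.1.2 ζ hζZ, mul_inv_cancel_right]
      have hm : ∀ n : ℕ, k ^ n * t * (k ^ n)⁻¹ = ζ ^ n * t := by
        intro n
        induction n with
        | zero => simp
        | succ n ih =>
          calc k ^ (n + 1) * t * (k ^ (n + 1))⁻¹ = k * (k ^ n * t * (k ^ n)⁻¹) * k⁻¹ := by
                rw [pow_succ']; group
            _ = (k * ζ * k⁻¹) ^ n * (k * t * k⁻¹) := by rw [ih, conj_pow]; group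
            _ = ζ ^ (n + 1) * t := by rw [hkζ, hζ, pow_succ]; group
      have h1 := hm (p ^ e)
      rw [← he, show ζ ^ Nat.card Zi = 1 from
        congrArg Subtype.val (pow_card_eq_one' (x := (⟨ζ, hζZ⟩ : Zi))), one_mul] at h1
      rw [← he]
      exact (mul_inv_eq_iff_eq_mul.1 h1).symm
  obtain ⟨f, hf, hfl⟩ := exists_frattini (P := P) (hLK h.mem)
    (S.2.to_le (inf_le_left.trans inf_le_left)) inf_le_right hPi
  have hflT : f * l ∈ L := mul_mem (hKL hf) h.mem
  have hflD : cj (f * l) D = D := by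
    rw [cj, hD, Subgroup.map_sup]
    exact congrArg₂ _ (cj_eq_of_mem hflT) (cj_eq_of_mem hfl)
  have h1 : Realised (nz S) T (f * l) :=
    (h.top.good hTD hDS (hflD.le.trans hDS)).mono hTD.le
  have h2 : Realised (nz S) T f⁻¹ := by
    have hf' : f⁻¹ ∈ ((KC ⊔ P : Subgroup G) : Set G) := hsup (inv_mem hf)
    rw [coe_mul_of_right_le_normalizer_left KC P (inf_le_right.trans
      (Modules.normalizes_inf (hKL.trans (Modules.normalizes_centralizer le_rfl)) le_normalizer))]
      at hf'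
    obtain ⟨c, hc, r, hr, hcr⟩ := hf'
    dsimp only at hcr
    refine ⟨r, le_nz S hr.1.1, fun t ht => ?_⟩
    have hrt : r * t * r⁻¹ ∈ T := mem_normalizer_conj hr.1.2 ht
    rw [← hcr]
    calc c * r * t * (c * r)⁻¹ = c * (r * t * r⁻¹) * c⁻¹ := by group
      _ = r * t * r⁻¹ := by
        rw [← mem_centralizer_iff.1 hc.1 _ hrt, mul_inv_cancel_right]
  apply h.bad
  have h3 := h1.comp (a := f⁻¹) (by rw [cj_eq_of_mem hflT]; exact h2)
  rwa [inv_mul_cancel_left] at h3

end

/-- The failure statement. -/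
def Fails {G : Type*} [Group G] (S : Sylow p G) : Prop :=
  ∃ D : Subgroup G, D ≤ (S : Subgroup G) ∧ ∃ g, cj g D ≤ (S : Subgroup G) ∧
    ¬ Realised (nz S) D g

section

variable {G : Type*} [Group G] [Finite G]

theorem concl_of_hyp (hp2 : p ≠ 2) (S : Sylow p G) (hyp : Hyp S) (hfail : Fails S) :
    Concl p (nz S) (zj S) := by
  classical
  obtain ⟨D, hDS, g, hgS, hn⟩ := hfail
  set Zi := (zj S).normalCore with hZi
  haveI : Zi.Normal := normalCore_normal _
  have hZiZ : Zi ≤ zj S := normalCore_le _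
  have hZne : Zi ≠ zj S := by
    intro he
    haveI : (zj S).Normal := he ▸ inferInstance
    exact hn (Realised.of_mem (by rw [nz, normalizer_eq_top]; exact mem_top g))
  set π := QuotientGroup.mk' Zi with hπ
  have hker : ∀ {X : Subgroup G}, Zi ≤ X → ∀ {z : G}, π z ∈ X.map π → z ∈ X := by
    rintro X hX z ⟨x, hx, he⟩
    have h1 : x⁻¹ * z ∈ Zi := QuotientGroup.eq.1 he
    simpa using mul_mem hx (hX h1)
  have hnorm : ∀ {X : Subgroup G}, Zi ≤ X →
      ∀ {n : G}, π n ∈ normalizer ((X.map π : Subgroup (G ⧸ Zi)) : Set (G ⧸ Zi)) →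
        n ∈ normalizer (X : Set G) := by
    intro X hX n hn
    refine mem_normalizer_of_forall fun x hx => hker hX ?_
    rw [map_mul, map_mul, map_inv]
    exact mem_normalizer_conj hn (mem_map_of_mem π hx)
  -- `Zt`
  obtain ⟨w, hwZ, hwZi, hwp, hwc⟩ : ∃ w ∈ zj S, w ∉ Zi ∧ w ^ p ∈ Zi ∧
      ∀ s ∈ (S : Subgroup G), ⁅s, w⁆ ∈ Zi := by
    have hne : (zj S).map π ≠ ⊥ := by
      intro hb
      refine hZne (le_antisymm hZiZ fun z hz => ?_)
      have : π z ∈ (⊥ : Subgroup (G ⧸ Zi)) := hb ▸ mem_map_of_mem π hz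
      exact (QuotientGroup.eq_one_iff z).1 (mem_bot.1 this)
    have hp' : IsPGroup p ((zj S).map π) := (S.2.to_le (zj_le S)).map π
    have hVb := Modules.inf_centralizer_ne_bot_of_isPGroup (A := (S : Subgroup G).map π) hp' hne
      ((map_mono (le_nz S)).trans (le_normalizer_map π)) (fun a ha => by
        obtain ⟨e, he⟩ := (S.2.map π) ⟨a, ha⟩
        exact ⟨e, by rw [show a ^ p ^ e = 1 from congrArg Subtype.val he]; exact one_mem _⟩)
    set V := (zj S).map π ⊓ centralizer (((S : Subgroup G).map π : Subgroup (G ⧸ Zi)) : Set (G ⧸ Zi))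
    haveI : Nontrivial V := (nontrivial_iff_ne_bot V).2 hVb
    obtain ⟨e, he, hVc⟩ := (hp'.to_le (inf_le_left : V ≤ _)).nontrivial_iff_card.1 inferInstance
    obtain ⟨v, hv⟩ := exists_prime_orderOf_dvd_card' (G := V) p (hVc ▸ dvd_pow_self p he.ne')
    obtain ⟨⟨w, hw, hwv⟩, hvc⟩ := v.2
    have hv' : orderOf (v : G ⧸ Zi) = p := by rw [orderOf_coe, hv]
    refine ⟨w, hw, fun h => ?_, ?_, fun s hs => ?_⟩
    · have : (v : G ⧸ Zi) = 1 := hwv.symm.trans ((QuotientGroup.eq_one_iff w).2 h)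
      rw [this, orderOf_one] at hv'
      exact hp.out.one_lt.ne hv'
    · refine (QuotientGroup.eq_one_iff _).1 ?_
      show π (w ^ p) = 1
      rw [map_pow, hwv, ← hv', pow_orderOf_eq_one]
    · have h1 : π s * π w = π w * π s := by
        rw [hwv]
        exact mem_centralizer_iff.1 hvc _ (mem_map_of_mem π hs)
      simpa [commutatorElement_def] using commute_mk_iff.1 (show Commute (π s) (π w) from h1)
  set Zt := Zi ⊔ zpowers w with hZt
  have hZtZ : Zt ≤ zj S := sup_le hZiZ (zpowers_le.2 hwZ)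
  have hZtmap : Zt.map π = zpowers (π w) := by
    rw [hZt, Subgroup.map_sup, hπ, QuotientGroup.map_mk'_self, bot_sup_eq, MonoidHom.map_zpowers]
  have hSZt : (S : Subgroup G) ≤ normalizer (Zt : Set G) := by
    intro s hs
    refine hnorm le_sup_left (mem_normalizer_of_forall ?_)
    intro x hx
    rw [hZtmap] at hx ⊢
    obtain ⟨i, rfl⟩ := mem_zpowers_iff.1 hx
    have hc : Commute (π s) (π w) := commute_mk_iff.2 (by
      simpa [commutatorElement_def] using hwc s hs)
    rw [(hc.zpow_right i).eq, mul_inv_cancel_right]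
    exact zpow_mem (mem_zpowers _) i
  have hKt : normalizer (Zt : Set G) ≠ ⊤ := by
    intro h
    haveI : Zt.Normal := normalizer_eq_top_iff.1 h
    exact hwZi (Subgroup.normal_le_normalCore.2 hZtZ (mem_sup_right (mem_zpowers w)))
  have hwS : ∀ s ∈ (S : Subgroup G), ∀ z ∈ Zt, Commute (π s) (π z) := by
    intro s hs z hz
    have hz' : π z ∈ zpowers (π w) := hZtmap ▸ mem_map_of_mem π hz
    obtain ⟨i, hi⟩ := mem_zpowers_iff.1 hz'
    rw [← hi]
    exact (commute_mk_iff.2 (by simpa [commutatorElement_def] using hwc s hs)).zpow_right i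
  have hcent : ∀ T : Subgroup G, IsPGroup p T → T ≤ normalizer (Zt : Set G) →
      ∀ t ∈ T, ∀ z ∈ Zt, ⁅t, z⁆ ∈ Zi := by
    intro T hT hTN t ht z hz
    obtain ⟨k, hk, hkT⟩ := exists_conj_le hT hTN S.2 hSZt
      (fun h => S.not_dvd_index (h.trans (relIndex_dvd_index_of_le hSZt)))
    have h1 := hwS _ (hkT (conj_mem_cj.2 ht)) _ (mem_normalizer_conj hk hz)
    rw [map_mul, map_mul, map_mul, map_mul, map_inv, Commute.conj_iff] at h1
    simpa [commutatorElement_def] using commute_mk_iff.1 h1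
  have hZtp : ∀ z ∈ Zt, z ^ p ∈ Zi := by
    intro z hz
    have hz' : π z ∈ zpowers (π w) := hZtmap ▸ mem_map_of_mem π hz
    obtain ⟨i, hi⟩ := mem_zpowers_iff.1 hz'
    refine (QuotientGroup.eq_one_iff _).1 ?_
    show π (z ^ p) = 1
    have h0 : π w ^ p = 1 := (map_pow π w p).symm.trans ((QuotientGroup.eq_one_iff _).2 hwp)
    rw [map_pow, ← hi, ← zpow_natCast, ← zpow_mul, mul_comm, zpow_mul, zpow_natCast, h0, one_zpow]
  -- a bad subgroup over `Zi`
  have hbad : Bad Zi S (D ⊔ Zi) :=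
    ⟨le_sup_right, sup_le hDS (hZiZ.trans (zj_le S)), g, by
      rw [cj, Subgroup.map_sup]
      exact sup_le hgS ((cj_eq_of_normal g Zi).le.trans (hZiZ.trans (zj_le S))),
      fun h => hn (h.mono le_sup_left)⟩
  obtain ⟨T₀, l₀, hloc₀⟩ := exists_loc hbad
  -- the subgroup `B` of a top subgroup
  let Bf : Subgroup G → Subgroup G := fun T =>
    (Cfsg.centerThompsonAOf (T.map π)).comap π
  have hBcj : ∀ (g : G) (T : Subgroup G), cj g (Bf T) = Bf (cj g T) := by
    intro g T
    ext z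
    simp only [Bf, mem_cj, mem_comap]
    rw [map_cj, cj, ← Modules.map_centerThompsonAOf
      (f := (MulAut.conj (π g)).toMonoidHom) (MulEquiv.injective _), mem_cj, map_mul,
      map_mul, map_inv]
  have hNB : ∀ T : Subgroup G, normalizer (T : Set G) ≤ normalizer (Bf T : Set G) := by
    intro T y hy
    rw [← cj_eq_iff_mem_normalizer, hBcj, cj_eq_of_mem hy]
  -- well placed
  obtain ⟨P', hP', hP'N, hP'p, hP'i⟩ := exists_sylow_ge
    (S.2.to_le inf_le_left : IsPGroup p ((S : Subgroup G) ⊓ normalizer (Bf T₀ : Set G) : Subgroup G))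
    inf_le_right
  obtain ⟨g₀, -, hg₀⟩ := exists_conj_le hP'p (le_top : P' ≤ ⊤) S.2 le_top
    (by rw [relIndex_top_right]; exact S.not_dvd_index)
  set R₀ := (S : Subgroup G) ⊓ normalizer (T₀ : Set G) with hR₀
  have hR₀P : R₀ ≤ P' := (inf_le_inf_left _ (hNB T₀)).trans hP'
  have hreal : Realised (nz S) T₀ g₀ :=
    (hloc₀.top.good hloc₀.lt_normalizer inf_le_left ((cj_mono g₀ hR₀P).trans hg₀)).mono
      hloc₀.lt_normalizer.le
  set T := cj g₀ T₀ with hT
  set l := g₀ * l₀ * g₀⁻¹ with hl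
  have hlT : l ∈ normalizer (T : Set G) := conj_mem_normalizer_cj hloc₀.mem
  have hnl : ¬ Realised (nz S) T l := not_realised_conj hloc₀.mem hloc₀.bad hreal
  have hTS : T ≤ (S : Subgroup G) :=
    (cj_mono g₀ (hloc₀.lt_normalizer.le.trans hR₀P)).trans hg₀
  have hTbad : Bad Zi S T := by
    refine ⟨?_, hTS, l, (cj_eq_of_mem hlT).le.trans hTS, hnl⟩
    rw [← cj_eq_of_normal g₀ Zi]
    exact cj_mono g₀ hloc₀.top.1.1
  have hloc : Loc Zi S T l := by
    refine ⟨(hloc₀.top.of_le hTbad (m := g₀) le_rfl).1, hlT, hnl, fun h => hloc₀.syl ?_⟩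
    have hle : cj g₀ R₀ ≤ (S : Subgroup G) ⊓ normalizer (T : Set G) :=
      le_inf ((cj_mono g₀ hR₀P).trans hg₀) (by rw [← cj_normalizer]; exact cj_mono g₀ inf_le_right)
    have h2 := h.trans (relIndex_dvd_of_le_left _ hle)
    rwa [← cj_normalizer, relIndex_map_map_of_injective _ _ (MulEquiv.injective _)] at h2
  have hZtT : Zt ≤ T := sup_le hTbad.1 (zpowers_le.2 (hloc.wmem hZiZ hwZ hwc))
  set B := Bf T with hB
  have hBmap : B.map π = Cfsg.centerThompsonAOf (T.map π) :=
    map_comap_eq_self_of_surjective (QuotientGroup.mk'_surjective Zi) _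
  have hZiB : Zi ≤ B := fun z hz => by
    show π z ∈ Cfsg.centerThompsonAOf (T.map π)
    rw [show π z = 1 from (QuotientGroup.eq_one_iff z).2 hz]
    exact one_mem _
  have hBT : B ≤ T := fun z hz => hker hTbad.1 (Modules.centerThompsonAOf_le _ hz)
  have hZtB : Zt ≤ B := by
    intro z hz
    refine Modules.center_le_centerThompsonAOf (T.map π) ⟨mem_map_of_mem π (hZtT hz), ?_⟩
    refine mem_centralizer_iff.2 ?_
    rintro - ⟨t, ht, rfl⟩
    exact (hwS t (hTS ht) z hz).eq
  set RB := (S : Subgroup G) ⊓ normalizer (B : Set G) with hRBdef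
  have hRB : ¬ p ∣ RB.relIndex (normalizer (B : Set G)) := by
    have hcn : cj g₀ (normalizer (Bf T₀ : Set G)) = normalizer (B : Set G) := by
      rw [cj_normalizer, hBcj]
    intro h
    apply hP'i
    have h2 := h.trans (relIndex_dvd_of_le_left _
      (le_inf hg₀ ((cj_mono g₀ hP'N).trans hcn.le) : cj g₀ P' ≤ RB))
    rwa [← hcn, relIndex_map_map_of_injective _ _ (MulEquiv.injective _)] at h2
  have hTRB : T ≤ RB := le_inf hTS (le_normalizer.trans (hNB T))
  have hlB : l ∈ normalizer (B : Set G) := hNB T hlT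
  have hBab : ∀ a ∈ B, ∀ b ∈ B, ⁅a, b⁆ ∈ Zi := by
    intro a ha b hb
    simpa [commutatorElement_def] using commute_mk_iff.1
      (show Commute (π a) (π b) from
        Modules.comm_iff.1 (Modules.centerThompsonAOf_comm (T.map π)) _ ha _ hb)
  set Tb := T.map π with hTb
  set RBb := RB.map π with hRBb
  set Jb := Cfsg.thompsonSubgroupAOf Tb with hJb
  have hTbR : Tb ≤ RBb := map_mono hTRB
  by_cases hA : ∃ A ∈ Modules.maxAbIn RBb, ¬ A ≤ Jb
  · -- generic case
    refine push S hp2 hyp hZiZ le_sup_left hZtZ hSZt hKt hZtp hcent hZtB (hBT.trans hTS) hBab hRB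
      ⟨T, hBT, hTRB, l, hlB, (cj_eq_of_mem hlT).le.trans hTS, hnl⟩
      fun D l' hBD hD _ hl'D hn' hall => ?_
    obtain ⟨A, ⟨hA, hAJ⟩, hAmax⟩ := Set.exists_max_image
      {A | A ∈ Modules.maxAbIn RBb ∧ ¬ A ≤ Jb} (fun A => Nat.card (A ⊓ B.map π : Subgroup _))
      (Set.toFinite _) hA
    have hRBB : RBb ≤ normalizer ((B.map π : Subgroup (G ⧸ Zi)) : Set (G ⧸ Zi)) :=
      (map_mono inf_le_right).trans (le_normalizer_map π)
    have hBA : B.map π ≤ normalizer (A : Set (G ⧸ Zi)) := by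
      by_contra hBA
      obtain ⟨A', hA'R, hA'c, hA'card, hlt, hA'N, -⟩ := EvenLocal.exists_replacement_within hp2
        ((S.2.to_le inf_le_left).map π : IsPGroup p RBb) hA.1
        (map_mono (le_inf (hBT.trans hTS) le_normalizer)) hA.2.1
        (le_trans (commutator_le.2 (by
          rintro - ⟨a, ha, rfl⟩ - ⟨b, hb, rfl⟩
          rw [← map_commutatorElement, mem_bot]
          exact (QuotientGroup.eq_one_iff _).2 (hBab a ha b hb))) bot_le)
        (hA.1.trans hRBB) hBA hA.1 le_rfl le_normalizer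
      have hA' : A' ∈ Modules.maxAbIn RBb :=
        ⟨hA'R, hA'c, fun C hC hC' => (hA.2.2 C hC hC').trans hA'card.ge⟩
      have hA'J : A' ≤ Jb := by
        by_contra h
        exact absurd (hAmax A' ⟨hA', h⟩)
          (not_le.2 (card_lt_card hlt))
      have hA'T : A' ∈ Modules.maxAbIn Tb := (Modules.maxAbIn_of_le hTbR hA'
        (hA'J.trans (Modules.thompsonSubgroupAOf_le _)) A').2
        ⟨hA', hA'J.trans (Modules.thompsonSubgroupAOf_le _)⟩
      exact hBA ((hBmap.le.trans (Modules.centerThompsonAOf_le_of_mem hA'T)).trans hA'N)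
    have hsub : ∀ C : Subgroup (G ⧸ Zi), C ≤ RBb → IsMulCommutative C →
        B.map π ≤ normalizer (C : Set (G ⧸ Zi)) → C ≤ D.map π := by
      intro C hC hCc hBC z hz
      obtain ⟨r, hr, rfl⟩ := hC hz
      refine mem_map_of_mem π (hall r hr fun b hb => ?_)
      have h1 : ⁅π r, π b⁆ ∈ C := by
        have h2 := mem_normalizer_conj (hBC (mem_map_of_mem π hb)) (inv_mem hz)
        simpa [commutatorElement_def, mul_assoc] using mul_mem hz h2
      have h3 : Commute (π r) (π ⁅r, b⁆) := by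
        rw [map_commutatorElement]
        exact Modules.comm_iff.1 hCc _ hz _ h1
      simpa [commutatorElement_def] using commute_mk_iff.1 h3
    have hD' : Bad Zi S D :=
      ⟨hZiB.trans hBD, hD.trans inf_le_left, l', (cj_eq_of_mem hl'D).le.trans (hD.trans inf_le_left),
        hn'⟩
    have hAD : A ≤ D.map π := hsub A hA.1 hA.2.1 hBA
    have ha1 : abOrd Tb ≤ abOrd RBb := abOrd_mono hTbR
    have ha2 : abOrd RBb ≤ abOrd (D.map π) := by
      obtain ⟨A', hA'⟩ := Modules.maxAbIn_nonempty (D.map π)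
      rw [← abOrd_eq hA, ← abOrd_eq hA']
      exact hA'.2.2 A hAD hA.2.1
    have ha3 : abOrd (D.map π) ≤ abOrd Tb := (hloc.top.2 D hD').1
    have hDT : abOrd (D.map π) = abOrd Tb := le_antisymm ha3 (ha1.trans ha2)
    have hAJD : A ≤ Cfsg.thompsonSubgroupAOf (D.map π) := by
      refine Modules.le_thompsonSubgroupAOf ⟨hAD, hA.2.1, fun C hC hC' => ?_⟩
      obtain ⟨A', hA'⟩ := Modules.maxAbIn_nonempty (D.map π)
      refine (hA'.2.2 C hC hC').trans ?_
      rw [abOrd_eq hA', abOrd_eq hA]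
      omega
    have hJJ : Jb ≤ Cfsg.thompsonSubgroupAOf (D.map π) := by
      rw [hJb, Modules.thompsonSubgroupAOf_eq_sSup Tb]
      refine sSup_le fun C hC => Modules.le_thompsonSubgroupAOf ?_
      refine ⟨hsub C (hC.1.trans hTbR) hC.2.1
        ((hBmap.le.trans (Modules.centerThompsonAOf_le_of_mem hC)).trans le_normalizer), hC.2.1,
        fun E hE hE' => ?_⟩
      obtain ⟨A', hA'⟩ := Modules.maxAbIn_nonempty (D.map π)
      refine (hA'.2.2 E hE hE').trans ?_
      rw [abOrd_eq hA', abOrd_eq hC, hDT]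
    have h4 := ((hloc.top.2 D hD').2 hDT).1
    exact hAJ (hAJD.trans (eq_of_le_of_card_ge hJJ h4).ge)
  · -- the Thompson subgroup modulo `Zi` lies in `T`
    push Not at hA
    have hJJ : Cfsg.thompsonSubgroupAOf RBb ≤ Tb := by
      rw [Modules.thompsonSubgroupAOf_eq_sSup]
      exact sSup_le fun A h => (hA A h).trans (Modules.thompsonSubgroupAOf_le _)
    have hJeq : Jb = Cfsg.thompsonSubgroupAOf RBb :=
      Modules.thompsonSubgroupAOf_eq_of_le hTbR hJJ
    have hZeq : Cfsg.centerThompsonAOf RBb = B.map π := by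
      rw [hBmap, Cfsg.centerThompsonAOf, Cfsg.centerThompsonAOf, ← hJeq]
    have hRBS : RB = (S : Subgroup G) := by
      by_contra hne
      have hlt := lt_normalizer_inf S.2 (lt_of_le_of_ne (inf_le_left : RB ≤ _) hne)
      obtain ⟨n, ⟨hnS, hnN⟩, hnR⟩ := SetLike.exists_of_lt hlt
      refine hnR ⟨hnS, hnorm hZiB ?_⟩
      rw [← hZeq]
      exact Modules.normalizer_le_normalizer_centerThompsonAOf RBb
        (le_normalizer_map π (mem_map_of_mem π hnN))
    have hSB : (S : Subgroup G) ≤ normalizer (B : Set G) := hRBS.ge.trans inf_le_right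
    have hTl : cj l T ≤ (S : Subgroup G) := (cj_eq_of_mem hlT).le.trans hTS
    have hBtop : normalizer (B : Set G) = ⊤ := by
      by_contra hne
      exact hnl (hyp _ hSB hne T hTS l hlB hTl)
    haveI hBn : B.Normal := normalizer_eq_top_iff.1 hBtop
    set B2 := normalClosure (Zt : Set G) with hB2
    have hB2B : B2 ≤ B := normalClosure_le_normal fun z hz => hZtB hz
    have hZtB2 : Zt ≤ B2 := fun z hz => subset_normalClosure hz
    have hB2N : normalizer (B2 : Set G) = ⊤ := normalizer_eq_top (H := B2)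
    refine push S hp2 hyp hZiZ le_sup_left hZtZ hSZt hKt hZtp hcent (B := B2) hZtB2
      ((hB2B.trans hBT).trans hTS)
      (fun a ha b hb => hBab a (hB2B ha) b (hB2B hb))
      (by rw [hB2N, inf_top_eq, relIndex_top_right]; exact S.not_dvd_index)
      ⟨T, hB2B.trans hBT, le_inf hTS (by rw [hB2N]; exact le_top), l,
        by rw [hB2N]; exact mem_top _, hTl, hnl⟩
      fun D l' hBD hD _ hl'D hn' hall => ?_
    have hDS' : D ≤ (S : Subgroup G) := hD.trans inf_le_left
    have hD'' : cj l' D ≤ (S : Subgroup G) := (cj_eq_of_mem hl'D).le.trans hDS'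
    set sS : Set G := {x | x ∈ (S : Subgroup G) ∧ Quad B2 Zi x} with hsS
    set X0 := closure sS with hX0
    have hX0S : X0 ≤ (S : Subgroup G) := (closure_le _).2 fun x hx => hx.1
    have hNX : ∀ y : G, (∀ x ∈ sS, y * x * y⁻¹ ∈ sS) → y ∈ normalizer (X0 : Set G) := by
      intro y hy
      refine mem_normalizer_of_forall fun x hx => ?_
      refine (?_ : cj y X0 ≤ X0) (conj_mem_cj.2 hx)
      rw [cj, hX0, MonoidHom.map_closure]
      refine closure_mono ?_
      rintro - ⟨z, hz, rfl⟩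
      exact hy z hz
    have hqc : ∀ y : G, ∀ x, Quad B2 Zi x → Quad B2 Zi (y * x * y⁻¹) := fun y x hx =>
      quad_conj (by rw [hB2N]; exact mem_top _) hx
    have hl'X : l' ∈ normalizer (X0 : Set G) := hNX l' fun x hx =>
      ⟨hDS' (mem_normalizer_conj hl'D (hall x ⟨hx.1, by rw [hB2N]; exact mem_top _⟩ hx.2)),
        hqc _ _ hx.2⟩
    have hSX : (S : Subgroup G) ≤ normalizer (X0 : Set G) := fun s hs => hNX s fun x hx =>
      ⟨mul_mem (mul_mem hs hx.1) (inv_mem hs), hqc _ _ hx.2⟩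
    have hX0top : normalizer (X0 : Set G) = ⊤ := by
      by_contra hne
      exact hn' (hyp _ hSX hne D hDS' l' hl'X hD'')
    haveI : X0.Normal := normalizer_eq_top_iff.1 hX0top
    haveI : (B2.map π).Normal := Subgroup.Normal.map inferInstance _ (QuotientGroup.mk'_surjective Zi)
    set C2 := (centralizer ((B2.map π : Subgroup (G ⧸ Zi)) : Set (G ⧸ Zi))).comap π with hC2
    haveI : C2.Normal := Subgroup.Normal.comap inferInstance π
    have hX0C : X0 ≤ C2 := by
      intro x hx
      rw [mem_comap, mem_centralizer_iff]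
      rintro - ⟨z, hz, rfl⟩
      show π z * π x = π x * π z
      revert x
      induction hz using closure_induction with
      | mem z hz =>
        intro x hx
        obtain ⟨z0, hz0, hc⟩ := Group.mem_conjugatesOfSet_iff.1 hz
        obtain ⟨y, rfl⟩ := isConj_iff.1 hc
        have hx' : y⁻¹ * x * y ∈ X0 := by
          simpa using (inferInstance : X0.Normal).conj_mem x hx y⁻¹
        have h1 := hcent X0 (S.2.to_le hX0S) (hX0S.trans hSZt) _ hx' z0 hz0
        have h2 : Commute (π (y⁻¹ * x * y)) (π z0) := commute_mk_iff.2 (by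
          simpa [commutatorElement_def] using h1)
        simpa [mul_assoc] using ((h2.conj (π y)).symm).eq
      | one => intro x _; simp
      | mul a b _ _ ha hb =>
        intro x hx
        rw [map_mul]
        exact (Commute.mul_left (ha hx : Commute _ _) (hb hx : Commute _ _)).eq
      | inv a _ ha =>
        intro x hx
        rw [map_inv]
        exact (Commute.inv_left (ha hx : Commute _ _)).eq
    have hC2Zt : C2 ≤ normalizer (Zt : Set G) := by
      intro c hc
      refine hnorm le_sup_left (mem_normalizer_of_forall ?_)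
      rintro - ⟨z, hz, rfl⟩
      rw [← mem_centralizer_iff.1 (mem_comap.1 hc) _ (mem_map_of_mem π (hZtB2 hz)),
        mul_inv_cancel_right]
      exact mem_map_of_mem π hz
    have hAex : ∃ A ∈ Modules.maxAbIn (S : Subgroup G), ¬ A ≤ C2 := by
      by_contra h
      push Not at h
      refine hnl (realised_of_normal S hyp hSZt hKt (C := C2) (NB := ⊤) le_top
        (fun y _ => normalizer_eq_top (H := C2) ▸ mem_top y) hC2Zt ?_ hTS le_top (mem_top _) hTl)
      rw [Modules.thompsonSubgroupAOf_eq_sSup]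
      exact sSup_le fun A hA => h A hA
    obtain ⟨A, ⟨hA', hAC⟩, hAmax⟩ := Set.exists_max_image
      {A | A ∈ Modules.maxAbIn (S : Subgroup G) ∧ ¬ A ≤ C2}
      (fun A => Nat.card (A ⊓ B2 : Subgroup G)) (Set.toFinite _) hAex
    have hB2S : B2 ≤ (S : Subgroup G) := (hB2B.trans hBT).trans hTS
    have hBA : B2 ≤ normalizer (A : Set G) := by
      by_contra hBA
      obtain ⟨A', hA'S, hA'c, hA'card, hlt, hA'N, -⟩ := EvenLocal.exists_replacement_within hp2
        S.2 hA'.1 hB2S hA'.2.1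
        (commutator_le.2 fun a ha b hb => Modules.centerThompsonAOf_le_of_mem hA'
          (hZiZ (hBab a (hB2B ha) b (hB2B hb))))
        (fun y _ => by rw [hB2N]; exact mem_top y) hBA hA'.1 le_rfl le_normalizer
      have hA'' : A' ∈ Modules.maxAbIn (S : Subgroup G) :=
        ⟨hA'S, hA'c, fun C hC hC' => (hA'.2.2 C hC hC').trans hA'card.ge⟩
      have hA'C : A' ≤ C2 := by
        by_contra h
        exact absurd (hAmax A' ⟨hA'', h⟩) (not_le.2 (card_lt_card hlt))
      refine hBA (le_trans ?_ hA'N)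
      rw [hB2, normalClosure, closure_le]
      intro z hz
      obtain ⟨z0, hz0, hc⟩ := Group.mem_conjugatesOfSet_iff.1 hz
      obtain ⟨y, rfl⟩ := isConj_iff.1 hc
      -- write `y` as a product from `N(S ∩ C2)` and `C2`
      obtain ⟨f, hf, hfy⟩ := exists_frattini (P := (S : Subgroup G) ⊓ C2) (K := C2) (g := y)
        (normalizer_eq_top (H := C2) ▸ mem_top y) (S.2.to_le inf_le_left) inf_le_right
        (not_dvd_relIndex_inf (L := ⊤) le_top
          (fun y _ => normalizer_eq_top (H := C2) ▸ mem_top y)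
          (by rw [relIndex_top_right]; exact S.not_dvd_index))
      set n := f * y with hn0
      set c := n⁻¹ * y with hc0
      have hcC : c ∈ C2 := by
        rw [hc0, hn0, show (f * y)⁻¹ * y = y⁻¹ * f⁻¹ * y by group]
        simpa using (inferInstance : C2.Normal).conj_mem _ (inv_mem hf) y⁻¹
      have hc1 : c * z0 * c⁻¹ ∈ Zt := mem_normalizer_conj (hC2Zt hcC) hz0
      have hmem : cj n⁻¹ A' ∈ Modules.maxAbIn (S : Subgroup G) := by
        refine ⟨(cj_mono n⁻¹ (le_inf hA'S hA'C)).trans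
          ((cj_eq_of_mem (inv_mem hfy)).le.trans inf_le_left), Modules.comm_map _ hA'c,
          fun C hC hC' => ?_⟩
        rw [card_cj]
        exact hA''.2.2 C hC hC'
      have h1 := mem_cj_inv.1 ((hZtZ.trans (Modules.centerThompsonAOf_le_of_mem hmem)) hc1)
      rw [SetLike.mem_coe, show y * z0 * y⁻¹ = n * (c * z0 * c⁻¹) * n⁻¹ by rw [hc0]; group]
      exact h1
    obtain ⟨x, hx, hxC⟩ := SetLike.not_le_iff_exists.1 hAC
    refine hxC (hX0C (subset_closure ⟨hA'.1 hx, fun b hb => ?_⟩))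
    have h1 : ⁅x, b⁆ ∈ A := by
      have h2 := mem_normalizer_conj (hBA hb) (inv_mem hx)
      simpa [commutatorElement_def, mul_assoc] using A.mul_mem hx h2
    rw [commutatorElement_eq_one_iff_mul_comm.2 (Modules.comm_iff.1 hA'.2.1 _ hx _ h1)]
    exact one_mem _

end

universe u

/-- The theorem, by induction on the order. -/
theorem concl_of_fails (hp2 : p ≠ 2) : ∀ (n : ℕ) (G : Type u) [Group G] [Finite G],
    Nat.card G ≤ n → ∀ S : Sylow p G, Fails S → Concl p (nz S) (zj S) := by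
  intro n
  induction n with
  | zero =>
    intro G _ _ hn
    have := Nat.card_pos (α := G)
    omega
  | succ n ih =>
    intro G _ _ hcard S hfail
    by_cases hyp : Hyp S
    · exact concl_of_hyp hp2 S hyp hfail
    simp only [Hyp, not_forall] at hyp
    obtain ⟨K, hSK, hK, D, hD, g, hg, hgD, hn'⟩ := hyp
    set SK : Sylow p K := (S.2.comap_subtype (K := K)).toSylow
      (fun h => S.not_dvd_index (h.trans (relIndex_dvd_index_of_le hSK))) with hSKdef
    have eS : (SK : Subgroup K).map K.subtype = (S : Subgroup G) := map_subgroupOf_eq_of_le hSK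
    have eZ : (zj SK).map K.subtype = zj S := by
      show (Cfsg.centerThompsonAOf (SK : Subgroup K)).map K.subtype = _
      rw [Modules.map_centerThompsonAOf K.subtype_injective, eS]
    have eH : (nz SK).map K.subtype ≤ nz S := (le_normalizer_map _).trans (by rw [eZ])
    have hlt : Nat.card K < Nat.card G :=
      lt_of_le_of_ne (card_le_card_group K) fun h => hK ((card_eq_iff_eq_top K).1 h)
    have hf : Fails SK := by
      refine ⟨D.subgroupOf K, fun d hd => hD hd, ⟨g, hg⟩, ?_, ?_⟩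
      · rintro - ⟨d, hd, rfl⟩
        exact hgD ⟨(d : G), hd, rfl⟩
      · rintro ⟨k, hk, hag⟩
        exact hn' ⟨k, eH (mem_map_of_mem _ hk), fun d hd =>
          congrArg Subtype.val (hag ⟨d, hSK (hD hd)⟩ hd)⟩
    obtain ⟨hinv, z, hz, k, hk, ho, c, hc, hzc⟩ := ih K (by omega) SK hf
    refine ⟨?_, (z : G), eZ ▸ mem_map_of_mem _ hz, (k : G), eH (mem_map_of_mem _ hk),
      by rw [orderOf_coe, ho], c, hc, by simpa using congrArg Subtype.val hzc⟩
    obtain ⟨A, f, hfs⟩ := EvenLocal.exists_surjective_of_involves hinv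
    let j : ↥(nz SK) →* ↥(nz S) :=
      (K.subtype.comp (nz SK).subtype).codRestrict (nz S) fun x => eH (mem_map_of_mem _ x.2)
    have hj : Function.Injective j := fun a b h =>
      Subtype.ext (Subtype.ext (congrArg (fun x : ↥(nz S) => (x : G)) h :))
    exact EvenLocal.involves_of_surjective
      (f.comp (A.equivMapOfInjective j hj).symm.toMonoidHom)
      (hfs.comp (A.equivMapOfInjective j hj).symm.surjective)

end Cfsg.Agent.ZJFail
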