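import Cfsg.Prelude.Def_LocalEven
import Cfsg.Agent.Fusion.Basic

/-!
Vocabulary for the failure of `Z(J(S))` to control strong fusion, and small group lemmas.
-/

set_option autoImplicit false
set_option linter.style.haveILetI false

namespace Cfsg.Agent.ZJFail

open Subgroup Cfsg.Agent.Fusion

variable {G : Type*} [Group G]

/-- `g` and `k` induce the same map on `D`. -/
def Agree (g k : G) (D : Subgroup G) : Prop := ∀ d ∈ D, g * d * g⁻¹ = k * d * k⁻¹

/-- Conjugation by `g` on `D` is realised inside `H`. -/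
def Realised (H D : Subgroup G) (g : G) : Prop := ∃ k ∈ H, Agree g k D

theorem Realised.of_mem {H D : Subgroup G} {g : G} (hg : g ∈ H) : Realised H D g :=
  ⟨g, hg, fun _ _ => rfl⟩

theorem Realised.mono {H D D' : Subgroup G} {g : G} (h : D' ≤ D) (hr : Realised H D g) :
    Realised H D' g := hr.imp fun _ hk => ⟨hk.1, fun d hd => hk.2 d (h hd)⟩

theorem Realised.comp {H D : Subgroup G} {a b : G} (h1 : Realised H D b)
    (h2 : Realised H (cj b D) a) : Realised H D (a * b) := by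
  obtain ⟨k, hk, h1⟩ := h1
  obtain ⟨k', hk', h2⟩ := h2
  refine ⟨k' * k, mul_mem hk' hk, fun d hd => ?_⟩
  calc a * b * d * (a * b)⁻¹ = a * (b * d * b⁻¹) * a⁻¹ := by group
    _ = k' * (b * d * b⁻¹) * k'⁻¹ := h2 _ (conj_mem_cj.2 hd)
    _ = k' * (k * d * k⁻¹) * k'⁻¹ := by rw [h1 d hd]
    _ = _ := by group

theorem Realised.inv {H D : Subgroup G} {g : G} (h : Realised H D g) :
    Realised H (cj g D) g⁻¹ := by
  obtain ⟨k, hk, h⟩ := h
  refine ⟨k⁻¹, inv_mem hk, ?_⟩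
  rintro - ⟨d, hd, rfl⟩
  show g⁻¹ * (g * d * g⁻¹) * g⁻¹⁻¹ = k⁻¹ * (g * d * g⁻¹) * k⁻¹⁻¹
  rw [h d hd]
  nth_rw 1 [← h d hd]
  group

theorem cj_eq_of_agree {g k : G} {D : Subgroup G} (h : Agree g k D) : cj g D = cj k D := by
  ext y
  constructor
  · rintro ⟨d, hd, rfl⟩
    exact ⟨d, hd, (h d hd).symm⟩
  · rintro ⟨d, hd, rfl⟩
    exact ⟨d, hd, h d hd⟩

/-- The conclusion: `F(p)` is involved in `H`, and some element of order `p` of `Z` is sent to a
primitive power of itself by an element of `H`. -/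
def Concl (p : ℕ) [Fact p.Prime] (H Z : Subgroup G) : Prop :=
  Cfsg.Involves ↥(Cfsg.fOver (ZMod p)) ↥H ∧ ∃ z ∈ Z, ∃ k ∈ H, orderOf z = p ∧
    ∃ c : ℕ, orderOf (c : ZMod p) = p - 1 ∧ k * z * k⁻¹ = z ^ c

variable [Finite G]

theorem mem_normalizer_of_forall {K : Subgroup G} {g : G} (h : ∀ x ∈ K, g * x * g⁻¹ ∈ K) :
    g ∈ normalizer (K : Set G) :=
  mem_normalizer_iff_map_conj_eq.2 (eq_of_le_of_card_ge
    (by rintro - ⟨x, hx, rfl⟩; exact h x hx) (card_map_of_injective (MulEquiv.injective _)).ge)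

omit [Finite G] in
theorem mem_normalizer_conj {K : Subgroup G} {g : G} (hg : g ∈ normalizer (K : Set G)) {x : G}
    (hx : x ∈ K) : g * x * g⁻¹ ∈ K :=
  (mem_normalizer_iff.1 hg x).1 hx

variable {p : ℕ} [Fact p.Prime]

/-- A `p`-subgroup of `N` lies in one of index prime to `p`. -/
theorem exists_sylow_ge {U N : Subgroup G} (hU : IsPGroup p U) (hUN : U ≤ N) :
    ∃ D : Subgroup G, U ≤ D ∧ D ≤ N ∧ IsPGroup p D ∧ ¬ p ∣ D.relIndex N := by
  obtain ⟨T, h1, h2⟩ := exists_sylow_inf_relIndex hU hUN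
  exact ⟨(T : Subgroup G) ⊓ N, le_inf h1 hUN, inf_le_right, T.2.to_le inf_le_left, h2⟩

/-- A `p`-subgroup of `N` is carried by `N` into a given one of index prime to `p`. -/
theorem exists_conj_le {U P N : Subgroup G} (hU : IsPGroup p U) (hUN : U ≤ N) (hP : IsPGroup p P)
    (hPN : P ≤ N) (hPi : ¬ p ∣ P.relIndex N) : ∃ g ∈ N, cj g U ≤ P := by
  obtain ⟨D, hUD, hDN, hD, hDi⟩ := exists_sylow_ge hU hUN
  obtain ⟨y, hy, hyD⟩ := exists_conj_of_relIndex hD hP hDN hPN hDi hPi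
  exact ⟨y, hy, (cj_mono y hUD).trans hyD.le⟩

/-- Elements of `M` with a `p`-power power in a normalized `K` lie in `K` times a Sylow subgroup. -/
theorem le_sup_of_pow_mem {K M D : Subgroup G} (hMK : M ≤ normalizer (K : Set G)) (hDi : ¬ p ∣ D.relIndex M) (h : ∀ m ∈ M, ∃ n, m ^ p ^ n ∈ K) : M ≤ K ⊔ D := by
  haveI : (K.subgroupOf M).Normal := normal_subgroupOf_of_le_normalizer hMK
  have hp : IsPGroup p (M ⧸ K.subgroupOf M) := by
    intro q
    obtain ⟨⟨m, hm⟩, rfl⟩ := QuotientGroup.mk_surjective q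
    obtain ⟨n, hn⟩ := h m hm
    refine ⟨n, ?_⟩
    rw [← QuotientGroup.mk_pow, QuotientGroup.eq_one_iff, mem_subgroupOf, SubmonoidClass.coe_pow]
    exact hn
  obtain ⟨e, he⟩ := IsPGroup.iff_card.1 hp
  have h1 : K.relIndex M = p ^ e := he
  have h2 : (K ⊔ D).relIndex M ∣ p ^ e := h1 ▸ relIndex_dvd_of_le_left M le_sup_left
  have h3 : (K ⊔ D).relIndex M ∣ D.relIndex M := relIndex_dvd_of_le_left M le_sup_right
  obtain ⟨i, -, hi⟩ := (Nat.dvd_prime_pow Fact.out).1 h2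
  rcases i with _ | i
  · exact relIndex_eq_one.1 (by simpa using hi)
  · exact absurd ((dvd_pow_self p (Nat.succ_ne_zero i)).trans (hi ▸ h3)) hDi

end Cfsg.Agent.ZJFail
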