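import Cfsg.Agent.ZJFail.Base
import Mathlib.Algebra.Module.ZMod

/-!
An elementary abelian section as a module, and restriction of representations.
-/

set_option autoImplicit false
set_option linter.style.haveILetI false

namespace Cfsg.Agent.ZJFail

open Subgroup
open scoped commutatorElement

universe u

variable {p : ℕ} [Fact p.Prime]

theorem exists_rep_aux {Q : Type u} [CommGroup Q] [Module (ZMod p) (Additive Q)] {L : Type*}
    [Group L] (cq : L → Q →* Q) (h1 : ∀ x, cq 1 x = x)
    (hm : ∀ a b x, cq (a * b) x = cq a (cq b x)) :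
    ∃ ρ : L →* Module.End (ZMod p) (Additive Q),
      ∀ l x, ρ l (Additive.ofMul x) = Additive.ofMul (cq l x) :=
  ⟨{ toFun := fun l => AddMonoidHom.toZModLinearMap p (cq l).toAdditive
     map_one' := LinearMap.ext fun x => h1 x
     map_mul' := fun a b => LinearMap.ext fun x => hm a b x }, fun _ _ => rfl⟩

/-- An elementary abelian section normalized by `L`, as a representation of `L`. -/
theorem exists_rep {G : Type u} [Group G] [Finite G] {L W1 W0 : Subgroup G}
    (hLW1 : L ≤ normalizer (W1 : Set G)) (hLW0 : L ≤ normalizer (W0 : Set G))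
    (hcomm : ∀ v ∈ W1, ∀ w ∈ W1, ⁅v, w⁆ ∈ W0) (hpow : ∀ w ∈ W1, w ^ p ∈ W0) :
    ∃ (V : Type u) (_ : AddCommGroup V) (_ : Module (ZMod p) V) (_ : Finite V) (q : W1 → V)
      (ρ : L →* Module.End (ZMod p) V), Function.Surjective q ∧
      (∀ v w, q (v * w) = q v + q w) ∧ (∀ w : W1, q w = 0 ↔ (w : G) ∈ W0) ∧
      ∀ (l : L) (w w' : W1), (w' : G) = l * w * (l : G)⁻¹ → ρ l (q w) = q w' := by
  set N := W0.subgroupOf W1 with hN
  haveI : N.Normal := ⟨fun n hn g => by
    rw [hN, mem_subgroupOf] at hn ⊢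
    have h := mul_mem (hcomm g g.2 n n.2) hn
    simpa [commutatorElement_def, mul_assoc] using h⟩
  letI : CommGroup (W1 ⧸ N) :=
    { (inferInstance : Group (W1 ⧸ N)) with
      mul_comm := fun a b => by
        obtain ⟨a, rfl⟩ := QuotientGroup.mk_surjective a
        obtain ⟨b, rfl⟩ := QuotientGroup.mk_surjective b
        show ((a * b : W1) : W1 ⧸ N) = ((b * a : W1) : W1 ⧸ N)
        rw [QuotientGroup.eq, hN, mem_subgroupOf]
        simpa [commutatorElement_def, mul_assoc] using hcomm _ (inv_mem b.2) _ (inv_mem a.2) }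
  letI : Module (ZMod p) (Additive (W1 ⧸ N)) := AddCommGroup.zmodModule (fun x => by
    obtain ⟨w, hw⟩ := QuotientGroup.mk_surjective x.toMul
    apply Additive.toMul.injective
    rw [toMul_nsmul, ← hw, ← QuotientGroup.mk_pow, toMul_zero, QuotientGroup.eq_one_iff, hN,
      mem_subgroupOf, SubmonoidClass.coe_pow]
    exact hpow w w.2)
  let cl : L → (W1 →* W1) := fun l =>
    { toFun := fun w => ⟨l * w * (l : G)⁻¹, mem_normalizer_conj (hLW1 l.2) w.2⟩
      map_one' := Subtype.ext (by simp)
      map_mul' := fun v w => Subtype.ext (by simp [mul_assoc]) }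
  let cq : L → (W1 ⧸ N →* W1 ⧸ N) := fun l => QuotientGroup.map N N (cl l) (fun w hw => by
    rw [Subgroup.mem_comap, hN, mem_subgroupOf]
    exact mem_normalizer_conj (hLW0 l.2) hw)
  have hcq : ∀ l w, cq l (QuotientGroup.mk w) = QuotientGroup.mk (cl l w) := fun l w => rfl
  obtain ⟨ρ, hρ⟩ := exists_rep_aux (p := p) (fun l => cq l)
    (fun x => by
      obtain ⟨w, rfl⟩ := QuotientGroup.mk_surjective x
      rw [hcq]
      exact congrArg _ (Subtype.ext (by simp [cl])))
    (fun a b x => by
      obtain ⟨w, rfl⟩ := QuotientGroup.mk_surjective x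
      rw [hcq, hcq, hcq]
      exact congrArg _ (Subtype.ext (by simp [cl, mul_assoc])))
  refine ⟨Additive (W1 ⧸ N), inferInstance, inferInstance, inferInstance,
    fun w => Additive.ofMul (QuotientGroup.mk w), ρ, fun x => ?_, fun v w => rfl, fun w => ?_,
    fun l w w' h => ?_⟩
  · obtain ⟨w, hw⟩ := QuotientGroup.mk_surjective x.toMul
    exact ⟨w, by simp only [hw, ofMul_toMul]⟩
  · rw [ofMul_eq_zero, QuotientGroup.eq_one_iff, hN, mem_subgroupOf]
  · rw [hρ, hcq, show cl l w = w' from Subtype.ext h.symm]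

/-- A representation restricted to an invariant submodule. -/
def restrictRep {V : Type*} [AddCommGroup V] [Module (ZMod p) V] {M : Type*} [Group M]
    (ρ : M →* Module.End (ZMod p) V) (W : Submodule (ZMod p) V) (h : ∀ m, ∀ v ∈ W, ρ m v ∈ W) :
    M →* Module.End (ZMod p) W where
  toFun m := (ρ m).restrict (h m)
  map_one' := LinearMap.ext fun v => Subtype.ext (by simp [LinearMap.restrict_apply])
  map_mul' a b := LinearMap.ext fun v => Subtype.ext (by simp [LinearMap.restrict_apply])

theorem restrictRep_coe {V : Type*} [AddCommGroup V] [Module (ZMod p) V] {M : Type*} [Group M]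
    (ρ : M →* Module.End (ZMod p) V) (W : Submodule (ZMod p) V) (h : ∀ m, ∀ v ∈ W, ρ m v ∈ W)
    (m : M) (v : W) : (restrictRep ρ W h m v : V) = ρ m v := rfl

/-- A representation on the quotient by an invariant submodule. -/
def quotRep {V : Type*} [AddCommGroup V] [Module (ZMod p) V] {M : Type*} [Group M]
    (ρ : M →* Module.End (ZMod p) V) (W : Submodule (ZMod p) V) (h : ∀ m, ∀ v ∈ W, ρ m v ∈ W) :
    M →* Module.End (ZMod p) (V ⧸ W) where
  toFun m := W.mapQ W (ρ m) (h m)
  map_one' := Submodule.linearMap_qext _ (LinearMap.ext fun v => by simp)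
  map_mul' a b := Submodule.linearMap_qext _ (LinearMap.ext fun v => by simp)

theorem quotRep_mk {V : Type*} [AddCommGroup V] [Module (ZMod p) V] {M : Type*} [Group M]
    (ρ : M →* Module.End (ZMod p) V) (W : Submodule (ZMod p) V) (h : ∀ m, ∀ v ∈ W, ρ m v ∈ W)
    (m : M) (v : V) : quotRep ρ W h m (W.mkQ v) = W.mkQ (ρ m v) := rfl

end Cfsg.Agent.ZJFail
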