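import Cfsg.Agent.ZJFail.FOver
import Cfsg.Agent.Coprime.Action
import Mathlib.Algebra.Module.ZMod
import Mathlib.LinearAlgebra.Dimension.Free

/-!
What a torus element gives: a section `F(p)` in `H` and an eigenvector of order `p` in `Z`.
-/

set_option autoImplicit false
set_option linter.style.haveILetI false
set_option maxHeartbeats 1000000

namespace Cfsg.Agent.ZJFail

open Subgroup Cfsg.Agent.Fusion
open scoped commutatorElement

variable {G : Type*} [Group G] [Finite G] {p : ℕ} [hp : Fact p.Prime]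

theorem units_pow_p_pow (c : (ZMod p)ˣ) (n : ℕ) : c ^ p ^ n = c := by
  induction n with
  | zero => simp
  | succ n ih =>
    rw [pow_succ, pow_mul, ih]
    refine Units.ext ?_
    rw [Units.val_pow_eq_pow_val, ZMod.pow_card]

omit [Finite G] in
theorem agree_pow {g k : G} {D : Subgroup G} (h : Agree g k D) (hg : g ∈ normalizer (D : Set G)) :
    ∀ n : ℕ, Agree (g ^ n) (k ^ n) D := by
  intro n
  induction n with
  | zero => intro d _; simp
  | succ n ih =>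
    intro d hd
    have hm : g * d * g⁻¹ ∈ D := mem_normalizer_conj hg hd
    calc g ^ (n + 1) * d * (g ^ (n + 1))⁻¹ = g ^ n * (g * d * g⁻¹) * (g ^ n)⁻¹ := by
          rw [pow_succ]; group
      _ = k ^ n * (g * d * g⁻¹) * (k ^ n)⁻¹ := ih _ hm
      _ = k ^ n * (k * d * k⁻¹) * (k ^ n)⁻¹ := by rw [h d hd]
      _ = _ := by rw [pow_succ]; group

variable {V : Type*} [AddCommGroup V] [Module (ZMod p) V] {M : Subgroup G}

/-- `s` is triangular for `e₁, e₂`: a scalar `d` on the vectors fixed by `xM`, its inverse on `e₂`. -/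
def Tri (ρ : M →* Module.End (ZMod p) V) (xM : M) (e₁ e₂ : V) (s : M) (d : (ZMod p)ˣ) : Prop :=
  (∀ v, (ρ xM - 1) v = 0 → ρ s v = (d : ZMod p) • v) ∧
    ∃ r : ZMod p, ρ s e₂ = ((d⁻¹ : (ZMod p)ˣ) : ZMod p) • e₂ + r • e₁

theorem Tri.mul {ρ : M →* Module.End (ZMod p) V} {xM : M} {e₁ e₂ : V}
    (ha1 : (ρ xM - 1) e₁ = 0) {g h : M} {d d' : (ZMod p)ˣ}
    (hg : Tri ρ xM e₁ e₂ g d) (hh : Tri ρ xM e₁ e₂ h d') :
    Tri ρ xM e₁ e₂ (g * h) (d * d') := by
  obtain ⟨h1, r, h2⟩ := hg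
  obtain ⟨h1', r', h2'⟩ := hh
  refine ⟨fun v hv => ?_, ((d'⁻¹ : (ZMod p)ˣ) : ZMod p) * r + r' * (d : ZMod p), ?_⟩
  · rw [map_mul, Module.End.mul_apply, h1' v hv, map_smul, h1 v hv, smul_smul, mul_comm,
      Units.val_mul]
  · rw [map_mul, Module.End.mul_apply, h2', map_add, map_smul, map_smul, h2, h1 e₁ ha1,
      _root_.mul_inv, Units.val_mul, smul_add, smul_smul, smul_smul, smul_smul, add_smul, add_assoc,
      mul_comm (((d'⁻¹ : (ZMod p)ˣ)) : ZMod p) ((d⁻¹ : (ZMod p)ˣ) : ZMod p)]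

theorem Tri.one (ρ : M →* Module.End (ZMod p) V) (xM : M) (e₁ e₂ : V) :
    Tri ρ xM e₁ e₂ 1 1 := ⟨fun v _ => by simp, 0, by simp⟩

theorem Tri.pow {ρ : M →* Module.End (ZMod p) V} {xM : M} {e₁ e₂ : V}
    (ha1 : (ρ xM - 1) e₁ = 0) {g : M} {d : (ZMod p)ˣ} (hg : Tri ρ xM e₁ e₂ g d) (j : ℕ) :
    Tri ρ xM e₁ e₂ (g ^ j) (d ^ j) := by
  induction j with
  | zero => simpa using Tri.one ρ xM e₁ e₂
  | succ j ih => rw [pow_succ, pow_succ]; exact ih.mul ha1 hg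

theorem Tri.inv {ρ : M →* Module.End (ZMod p) V} {xM : M} {e₁ e₂ : V}
    (ha1 : (ρ xM - 1) e₁ = 0) {g : M} {d : (ZMod p)ˣ} (hg : Tri ρ xM e₁ e₂ g d) :
    Tri ρ xM e₁ e₂ g⁻¹ d⁻¹ := by
  have h := hg.pow ha1 (orderOf g * orderOf d - 1)
  have hpos : 1 ≤ orderOf g * orderOf d := Nat.mul_pos (orderOf_pos g) (orderOf_pos d)
  have e1 : g ^ (orderOf g * orderOf d - 1) = g⁻¹ := by
    refine eq_inv_of_mul_eq_one_left ?_
    rw [← pow_succ, Nat.sub_add_cancel hpos, pow_mul, pow_orderOf_eq_one, one_pow]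
  have e2 : d ^ (orderOf g * orderOf d - 1) = d⁻¹ := by
    refine eq_inv_of_mul_eq_one_left ?_
    rw [← pow_succ, Nat.sub_add_cancel hpos, mul_comm, pow_mul, pow_orderOf_eq_one, one_pow]
  rwa [e1, e2] at h

variable (G p V) in
/-- A torus element with the section and the module it acts on. -/
structure Datum (S H Z U W1 M : Subgroup G) where
  /-- the representation -/
  ρ : M →* Module.End (ZMod p) V
  /-- the quadratic element -/
  xM : M
  /-- the torus element -/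
  h : M
  /-- the Sylow subgroup normalized by the torus element -/
  D : Subgroup G
  /-- carries `D` into `S` -/
  g : G
  /-- acts as the torus element -/
  k : G
  /-- the part of `W1` mapped onto the module -/
  X : Subgroup G
  /-- the map onto the module -/
  f : X →* Multiplicative V
  e₁ : V
  e₂ : V
  c : (ZMod p)ˣ
  hp2 : p ≠ 2
  hc : orderOf c = p - 1
  hsq : ∀ v : V, (ρ xM - 1) ((ρ xM - 1) v) = 0
  ha1 : (ρ xM - 1) e₁ = 0
  ha2 : (ρ xM - 1) e₂ = e₁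
  he1 : e₁ ≠ 0
  htri : Tri ρ xM e₁ e₂ h c
  hf : Function.Surjective f
  hfeq : ∀ (s : M) (w : X), ∃ w' : X, (w' : G) = s * w * (s : G)⁻¹ ∧
    (f w').toAdd = ρ s (f w).toAdd
  hXW : X ≤ W1
  hWD : W1 ≤ D
  hDp : IsPGroup p D
  hxD : (xM : G) ∈ D
  hhD : (h : G) ∈ normalizer (D : Set G)
  hgD : cj g D ≤ S
  hag : Agree (g * (h : G) * g⁻¹) k (cj g D)
  hcop : (orderOf k).Coprime p
  hkH : k ∈ H
  hSH : S ≤ H
  hHZ : H ≤ normalizer (Z : Set G)
  hZab : ∀ a ∈ Z, ∀ b ∈ Z, a * b = b * a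
  hUeq : U = Z ⊓ W1
  hgU : g ∈ normalizer (U : Set G)
  hgW : g ∈ normalizer (W1 : Set G)
  hMW : M ≤ normalizer (W1 : Set G)
  hxU : (xM : G) ∈ normalizer (U : Set G)
  hUX : ∃ w : X, (w : G) ∈ U ∧ f w ≠ 1

variable {S H Z U W1 : Subgroup G}

theorem Datum.conj_eq (d : Datum G p V S H Z U W1 M) {w : G} (hw : w ∈ W1) :
    d.k * (d.g * w * d.g⁻¹) * d.k⁻¹ = d.g * ((d.h : G) * w * (d.h : G)⁻¹) * d.g⁻¹ := by
  rw [← d.hag _ (conj_mem_cj.2 (d.hWD hw))]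
  group

theorem Datum.involves (d : Datum G p V S H Z U W1 M) :
    Cfsg.Involves ↥(Cfsg.fOver (ZMod p)) ↥H := by
  obtain ⟨ρ, xM, h, D, g, k, X, f, e₁, e₂, c, hp2, hc, hsq, ha1, ha2, he1, htri, hf, hfeq, hXW,
    hWD, hDp, hxD, hhD, hgD, hag, hcop, hkH, hSH, hHZ, -, -, -, -, -, -, -⟩ := d
  have hρx : ∀ v : V, ρ xM v = v + (ρ xM - 1) v := fun v => by simp [LinearMap.sub_apply]
  set ι : (Fin 2 → ZMod p) →ₗ[ZMod p] V :=
    (LinearMap.proj 0).smulRight e₁ + (LinearMap.proj 1).smulRight e₂ with hι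
  have hιap : ∀ v, ι v = v 0 • e₁ + v 1 • e₂ := fun v => rfl
  have hιinj : Function.Injective ι := by
    refine (injective_iff_map_eq_zero ι).2 fun v hv => ?_
    rw [hιap] at hv
    have h1 := congrArg (⇑(ρ xM - 1 : Module.End (ZMod p) V)) hv
    rw [map_add, map_smul, map_smul, ha1, ha2, smul_zero, zero_add, map_zero, smul_eq_zero] at h1
    have h1' := h1.resolve_right he1
    rw [h1', zero_smul, add_zero, smul_eq_zero] at hv
    ext i
    fin_cases i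
    · exact hv.resolve_right he1
    · exact h1'
  obtain ⟨κ, hκ⟩ := LinearMap.exists_leftInverse_of_injective ι (LinearMap.ker_eq_bot.2 hιinj)
  have hκι : ∀ v, κ (ι v) = v := fun v => LinearMap.congr_fun hκ v
  -- the part of `X` over the plane
  set X2 : Subgroup X := (AddSubgroup.toSubgroup (LinearMap.range ι).toAddSubgroup).comap f
    with hX2
  have hmemX2 : ∀ w : X, w ∈ X2 ↔ ∃ v, ι v = (f w).toAdd := fun w => Iff.rfl
  set P := cj g (X2.map X.subtype) with hP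
  have hmemP : ∀ z, z ∈ P ↔ ∃ w : X, w ∈ X2 ∧ g * (w : G) * g⁻¹ = z := by
    intro z
    constructor
    · rintro ⟨-, ⟨w, hw, rfl⟩, rfl⟩
      exact ⟨w, hw, rfl⟩
    · rintro ⟨w, hw, rfl⟩
      exact ⟨w, ⟨w, hw, rfl⟩, rfl⟩
  choose bk hbk hbk' using fun z : P => (hmemP z).1 z.2
  have hbku : ∀ (z : P) (w : X), g * (w : G) * g⁻¹ = z → bk z = w := fun z w hw =>
    Subtype.ext (mul_left_cancel (mul_right_cancel ((hbk' z).trans hw.symm)))
  have hιval : ∀ z, ι (κ (f (bk z)).toAdd) = (f (bk z)).toAdd := by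
    intro z
    obtain ⟨v, hv⟩ := (hmemX2 _).1 (hbk z)
    rw [← hv, hκι]
  let Φ : P →* Multiplicative (Fin 2 → ZMod p) := MonoidHom.mk'
    (fun z => Multiplicative.ofAdd (κ (f (bk z)).toAdd)) (fun z z' => by
      rw [← ofAdd_add, ← map_add, ← toAdd_mul, ← map_mul]
      rw [hbku (z * z') (bk z * bk z') (by
        rw [Subgroup.coe_mul, Subgroup.coe_mul, ← hbk' z, ← hbk' z']; group)])
  have hΦval : ∀ z, (Φ z).toAdd = κ (f (bk z)).toAdd := fun z => rfl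
  have hΦ : Function.Surjective Φ := by
    intro v
    obtain ⟨w, hw⟩ := hf (Multiplicative.ofAdd (ι v.toAdd))
    have hw0 : w ∈ X2 := (hmemX2 _).2 ⟨v.toAdd, by rw [hw]; rfl⟩
    refine ⟨⟨g * w * g⁻¹, (hmemP _).2 ⟨w, hw0, rfl⟩⟩, ?_⟩
    apply Multiplicative.toAdd.injective
    rw [hΦval, hbku _ w rfl, hw]
    exact hκι _
  have hact : ∀ (s : M) (A : (Fin 2 → ZMod p) → (Fin 2 → ZMod p)),
      (∀ v, ρ s (ι v) = ι (A v)) → ∀ z : P, ∀ z' : G,
      z' = g * ((s : G) * (bk z : G) * (s : G)⁻¹) * g⁻¹ →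
      z' ∈ P ∧ ∀ w' : P, (w' : G) = z' → (Φ w').toAdd = A (Φ z).toAdd := by
    intro s A hA z z' hz'
    obtain ⟨w₂, hw₂, hfw₂⟩ := hfeq s (bk z)
    have hπw : (f w₂).toAdd = ι (A (Φ z).toAdd) := by
      rw [← hA, hΦval, hιval, hfw₂]
    have hw₂P : w₂ ∈ X2 := (hmemX2 _).2 ⟨_, hπw.symm⟩
    refine ⟨(hmemP _).2 ⟨w₂, hw₂P, by rw [hw₂, hz']⟩, fun w' hw' => ?_⟩
    rw [hΦval, hbku w' w₂ (by rw [hw', hz', hw₂]), hπw, hκι]
  have hconj : ∀ z : P, k * (z : G) * k⁻¹ = g * ((h : G) * (bk z : G) * (h : G)⁻¹) * g⁻¹ := by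
    intro z
    rw [← hbk' z, ← hag _ (conj_mem_cj.2 (hWD (hXW (bk z).2)))]
    group
  -- the matrix of an element triangular for `e₁, e₂`
  have hmat : ∀ (s : M) (u : (ZMod p)ˣ), Tri ρ xM e₁ e₂ s u → ∃ r : ZMod p, ∀ v,
      ρ s (ι v) = ι ![(u : ZMod p) * v 0 + r * v 1, ((u⁻¹ : (ZMod p)ˣ) : ZMod p) * v 1] := by
    rintro s u ⟨h1, r, h2⟩
    refine ⟨r, fun v => ?_⟩
    rw [hιap, hιap, map_add, map_smul, map_smul, h1 e₁ ha1, h2]
    simp only [Matrix.cons_val_zero, Matrix.cons_val_one, smul_add, smul_smul, add_smul]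
    rw [mul_comm (v 0), mul_comm (v 1) _, mul_comm (v 1) r]
    abel
  obtain ⟨r, hAh⟩ := hmat h c htri
  have hkP := fun z : P => hact h _ hAh z _ (hconj z)
  have hkN : k ∈ normalizer (P : Set G) := mem_normalizer_of_forall fun z hz => (hkP ⟨z, hz⟩).1
  -- the inverting power
  set i₀ := (p - 1) / 2 with hi₀
  set t := k ^ i₀ with ht
  have hp1 : 2 * i₀ = p - 1 := by
    obtain ⟨d, hd⟩ := hp.out.odd_of_ne_two hp2
    omega
  have hcneg : c ^ i₀ = -1 := by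
    have h2 : ((c ^ i₀ : (ZMod p)ˣ) : ZMod p) * (c ^ i₀ : (ZMod p)ˣ) = 1 := by
      rw [← Units.val_mul, ← pow_add, ← two_mul, hp1, ← hc, pow_orderOf_eq_one, Units.val_one]
    rcases mul_self_eq_one_iff.1 h2 with h3 | h3
    · exfalso
      have h4 : orderOf c ∣ i₀ := orderOf_dvd_of_pow_eq_one (Units.ext h3)
      rw [hc] at h4
      have := hp.out.two_le
      have h5 := Nat.le_of_dvd (by omega) h4
      omega
    · exact Units.ext h3
  have hti : Tri ρ xM e₁ e₂ (h ^ i₀) (-1) := hcneg ▸ htri.pow ha1 i₀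
  have hgh : g * (h : G) * g⁻¹ ∈ normalizer (cj g D : Set G) := by
    rw [← cj_normalizer]
    exact conj_mem_cj.2 hhD
  have hagt : Agree (g * ((h ^ i₀ : M) : G) * g⁻¹) t (cj g D) := by
    have := agree_pow hag hgh i₀
    rwa [conj_pow, ← SubmonoidClass.coe_pow] at this
  obtain ⟨r', hAt⟩ := hmat (h ^ i₀) (-1) hti
  have htP : ∀ w : P, t * w * t⁻¹ = w → (Φ w).toAdd = 0 := by
    intro w hw
    have h1 := (hact (h ^ i₀) _ hAt w _ rfl).2 w (by
      conv_lhs => rw [← hw, ← hbk' w, ← hagt _ (conj_mem_cj.2 (hWD (hXW (bk w).2)))]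
      group)
    have h2 : (2 : ZMod p) ≠ 0 := by
      intro h2
      have h' : ((2 : ℕ) : ZMod p) = 0 := by exact_mod_cast h2
      rw [ZMod.natCast_eq_zero_iff] at h'
      exact hp2 ((Nat.prime_dvd_prime_iff_eq hp.out Nat.prime_two).1 h')
    have e1 := congrFun h1 1
    have e0 := congrFun h1 0
    simp at e0 e1
    have z1 : (Φ w).toAdd 1 = 0 :=
      (mul_eq_zero.1 (show (2 : ZMod p) * _ = 0 by linear_combination e1)).resolve_left h2
    have z0 : (Φ w).toAdd 0 = 0 := by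
      rw [z1] at e0
      exact (mul_eq_zero.1 (show (2 : ZMod p) * _ = 0 by linear_combination e0)).resolve_left h2
    ext i
    fin_cases i
    · exact z0
    · exact z1
  -- elements acting trivially on the plane
  let K' : Subgroup M :=
    { carrier := {s | ρ s e₁ = e₁ ∧ ρ s e₂ = e₂}
      one_mem' := by simp
      mul_mem' := fun {s s'} hs hs' => by
        simp only [Set.mem_setOf_eq, map_mul, Module.End.mul_apply, hs.1, hs.2, hs'.1, hs'.2,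
          and_self]
      inv_mem' := fun {s} hs => by
        have h1 : ∀ v, ρ s v = v → ρ s⁻¹ v = v := fun v hv => by
          conv_lhs => rw [← hv]
          rw [← Module.End.mul_apply, ← map_mul, inv_mul_cancel, map_one, Module.End.one_apply]
        exact ⟨h1 _ hs.1, h1 _ hs.2⟩ }
  set N := cj g (D ⊓ K'.map M.subtype) with hN
  have hNp : IsPGroup p N := isPGroup_cj (hDp.to_le inf_le_left) g
  set z₀ := g * (xM : G) * g⁻¹ with hz₀
  have hzD : z₀ ∈ cj g D := conj_mem_cj.2 hxD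
  have hinvv : ∀ (s : M) v, ρ s (ρ s⁻¹ v) = v := fun s v => by
    rw [← Module.End.mul_apply, ← map_mul, mul_inv_cancel, map_one, Module.End.one_apply]
  have hKinv : ∀ s : M, s ∈ K' → h * s * h⁻¹ ∈ K' := by
    rintro s ⟨hs1, hs2⟩
    obtain ⟨r₂, hr₂⟩ := (htri.inv ha1).2
    constructor
    · rw [map_mul, map_mul, Module.End.mul_apply, Module.End.mul_apply,
        (htri.inv ha1).1 e₁ ha1, map_smul, hs1, ← (htri.inv ha1).1 e₁ ha1, hinvv]
    · rw [map_mul, map_mul, Module.End.mul_apply, Module.End.mul_apply, hr₂, map_add, map_smul,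
        map_smul, hs1, hs2, ← hr₂, hinvv]
  have hkNn : k ∈ normalizer (N : Set G) := by
    refine mem_normalizer_of_forall ?_
    rintro - ⟨s, ⟨hsD, s', hs', rfl⟩, rfl⟩
    refine ⟨(h : G) * s' * (h : G)⁻¹,
      ⟨mem_normalizer_conj hhD hsD, h * s' * h⁻¹, hKinv s' hs', rfl⟩, ?_⟩
    show g * _ * g⁻¹ = k * (g * s' * g⁻¹) * k⁻¹
    have h1 : g * (h : G) * g⁻¹ * (g * (s' : G) * g⁻¹) * (g * (h : G) * g⁻¹)⁻¹ =
        k * (g * (s' : G) * g⁻¹) * k⁻¹ := hag _ (conj_mem_cj.2 hsD)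
    rw [← h1]
    group
  have hfix0 : z₀⁻¹ * t * z₀ * t⁻¹ ∈ N := by
    refine ⟨(xM : G)⁻¹ * (((h ^ i₀ : M) : G) * xM * ((h ^ i₀ : M) : G)⁻¹),
      ⟨mul_mem (D.inv_mem hxD)
        (mem_normalizer_conj (by rw [SubmonoidClass.coe_pow]; exact pow_mem hhD _) hxD),
      xM⁻¹ * (h ^ i₀ * xM * (h ^ i₀)⁻¹), ?_, rfl⟩, ?_⟩
    · have hti' : Tri ρ xM e₁ e₂ (h ^ i₀)⁻¹ (-1) := by simpa using hti.inv ha1
      obtain ⟨r₃, hr₃⟩ := hti'.2
      have hxi : ∀ v, ρ xM⁻¹ (ρ xM v) = v := fun v => by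
        rw [← Module.End.mul_apply, ← map_mul, inv_mul_cancel, map_one, Module.End.one_apply]
      have hx1 : ρ xM e₁ = e₁ := by rw [hρx, ha1, add_zero]
      have hx2' : ρ xM e₂ = e₂ + e₁ := by rw [hρx, ha2]
      constructor
      · show ρ (xM⁻¹ * (h ^ i₀ * xM * (h ^ i₀)⁻¹)) e₁ = e₁
        simp only [map_mul, Module.End.mul_apply]
        rw [hti'.1 e₁ ha1, map_smul, hx1, ← hti'.1 e₁ ha1, hinvv]
        conv_lhs => rw [← hx1]
        rw [hxi]
      · show ρ (xM⁻¹ * (h ^ i₀ * xM * (h ^ i₀)⁻¹)) e₂ = e₂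
        simp only [map_mul, Module.End.mul_apply]
        have h3 : ρ xM (ρ (h ^ i₀)⁻¹ e₂) = ρ (h ^ i₀)⁻¹ e₂ - e₁ := by
          rw [hr₃, map_add, map_smul, map_smul, hx1, hx2', smul_add]
          simp
          abel
        rw [h3, map_sub, hinvv, hti.1 e₁ ha1]
        have h4 : e₂ - ((-1 : (ZMod p)ˣ) : ZMod p) • e₁ = ρ xM e₂ := by rw [hx2']; simp
        rw [h4, hxi]
    · show g * _ * g⁻¹ = _
      rw [show z₀⁻¹ * t * z₀ * t⁻¹ = z₀⁻¹ * (t * z₀ * t⁻¹) by group, ← hagt z₀ hzD, hz₀]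
      group
  have hcop' : (Nat.card (zpowers t)).Coprime (Nat.card N) := by
    obtain ⟨e, he⟩ := IsPGroup.iff_card.1 hNp
    rw [Nat.card_zpowers, he]
    exact ((Nat.Coprime.of_dvd_left (orderOf_pow_dvd i₀) hcop).pow_right e)
  have hfix : ∀ s ∈ zpowers t, z₀⁻¹ * s * z₀ * s⁻¹ ∈ N := by
    intro s hs
    obtain ⟨i, rfl⟩ := (Submonoid.mem_powers_iff s t).1 (mem_powers_iff_mem_zpowers.2 hs)
    clear hs
    induction i with
    | zero => simp
    | succ i ih =>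
      have e : z₀⁻¹ * t ^ (i + 1) * z₀ * (t ^ (i + 1))⁻¹ =
          (z₀⁻¹ * t ^ i * z₀ * (t ^ i)⁻¹) * (t ^ i * (z₀⁻¹ * t * z₀ * t⁻¹) * (t ^ i)⁻¹) := by
        rw [pow_succ]; group
      rw [e]
      exact mul_mem ih (mem_normalizer_conj (pow_mem (pow_mem hkNn _) _) hfix0)
  obtain ⟨d, ⟨hdD, hdt⟩, hdN⟩ := Coprime.exists_fixed_mem_coset (K := cj g D)
    (zpowers_le.2 (pow_mem hkNn _) : zpowers t ≤ normalizer (N : Set G)) hcop'
    (Or.inl inferInstance) (cj_mono g inf_le_left) hzD hfix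
  obtain ⟨s₀, ⟨-, ⟨s₁, hs₁, rfl⟩⟩, hs₀⟩ := hdN
  have hdeq : d = g * ((xM : G) * (s₁ : G)) * g⁻¹ := by
    have : d = z₀ * (g * (s₁ : G) * g⁻¹) := by
      change g * (s₁ : G) * g⁻¹ = z₀⁻¹ * d at hs₀
      rw [hs₀, mul_inv_cancel_left]
    rw [this, hz₀]; group
  have hAd : ∀ v, ρ (xM * s₁) (ι v) = ι ![v 0 + v 1, v 1] := by
    intro v
    rw [hιap, hιap, map_mul, Module.End.mul_apply, map_add, map_smul, map_smul, hs₁.1, hs₁.2,
      map_add, map_smul, map_smul, hρx, hρx, ha1, ha2]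
    simp only [Matrix.cons_val_zero, Matrix.cons_val_one, smul_add, add_smul, add_zero]
    abel
  have hdP := fun z : P => hact (xM * s₁) _ hAd z (d * (z : G) * d⁻¹) (by
    rw [hdeq, ← hbk' z, Subgroup.coe_mul]
    group)
  have hPH : P ≤ H := fun z hz => by
    obtain ⟨w, -, rfl⟩ := (hmemP z).1 hz
    exact hSH (hgD (conj_mem_cj.2 (hWD (hXW w.2))))
  exact involves_fOver hPH Φ hΦ hkH (hSH (hgD hdD)) hkN
    (mem_normalizer_of_forall fun z hz => (hdP ⟨z, hz⟩).1) ((Commute.refl k).pow_left i₀)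
    (hdt t (mem_zpowers t)) htP hc (fun w w' hw => (hkP w).2 w' hw)
    (fun w w' hw => (hdP w).2 w' hw)

theorem Datum.exists_elt (d : Datum G p V S H Z U W1 M) :
    ∃ z ∈ Z, ∃ k ∈ H, orderOf z = p ∧ ∃ c : ℕ, orderOf (c : ZMod p) = p - 1 ∧
      k * z * k⁻¹ = z ^ c := by
  obtain ⟨ρ, xM, h, D, g, k, X, f, e₁, e₂, c, -, hc, hsq, -, -, -, htri, -, hfeq, hXW,
    hWD, hDp, -, -, -, hag, -, hkH, -, hHZ, hZab, rfl, hgU, hgW, hMW, hxU, ⟨w₀, hw₀U, hw₀⟩⟩ := d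
  -- an element of `U` mapped to a nonzero fixed vector
  obtain ⟨w₁, hw₁U, hw₁ne, hw₁a⟩ : ∃ w : X, (w : G) ∈ Z ⊓ W1 ∧ f w ≠ 1 ∧
      (ρ xM - 1) (f w).toAdd = 0 := by
    by_cases ha : (ρ xM - 1) (f w₀).toAdd = 0
    · exact ⟨w₀, hw₀U, hw₀, ha⟩
    · obtain ⟨w', hw', hfw'⟩ := hfeq xM w₀
      have e : (f (w' * w₀⁻¹)).toAdd = (ρ xM - 1) (f w₀).toAdd := by
        rw [map_mul, map_inv, toAdd_mul, toAdd_inv, hfw', LinearMap.sub_apply,
          Module.End.one_apply, sub_eq_add_neg]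
      refine ⟨w' * w₀⁻¹, ?_, fun h1 => ha ?_, by rw [e, hsq]⟩
      · rw [Subgroup.coe_mul, InvMemClass.coe_inv, hw']
        exact mul_mem (mem_normalizer_conj hxU hw₀U) (inv_mem hw₀U)
      · rw [← e, h1, toAdd_one]
  let Zs : Subgroup X :=
    { carrier := {w | (w : G) ∈ Z ⊓ W1 ∧ (ρ xM - 1) (f w).toAdd = 0}
      one_mem' := ⟨one_mem _, by rw [map_one, toAdd_one, map_zero]⟩
      mul_mem' := fun {v w} hv hw => ⟨mul_mem hv.1 hw.1, by
        rw [map_mul, toAdd_mul, map_add, hv.2, hw.2, add_zero]⟩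
      inv_mem' := fun {v} hv => ⟨(Z ⊓ W1).inv_mem hv.1, by
        rw [map_inv, toAdd_inv, map_neg, hv.2, neg_zero]⟩ }
  set cn : ℕ := (c : ZMod p).val with hcn
  have hcnc : (cn : ZMod p) = (c : ZMod p) := ZMod.natCast_zmod_val _
  have hkconj : ∀ w ∈ W1, k * (g * w * g⁻¹) * k⁻¹ = g * ((h : G) * w * (h : G)⁻¹) * g⁻¹ := by
    intro w hw
    rw [← hag _ (conj_mem_cj.2 (hWD hw))]
    group
  have hU' : ∀ w ∈ Z ⊓ W1, (h : G) * w * (h : G)⁻¹ ∈ Z ⊓ W1 := by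
    intro w hw
    have h1 : k * (g * w * g⁻¹) * k⁻¹ ∈ Z :=
      mem_normalizer_conj (hHZ hkH) (mem_normalizer_conj hgU hw).1
    rw [hkconj w hw.2] at h1
    have h2 : g * ((h : G) * w * (h : G)⁻¹) * g⁻¹ ∈ Z ⊓ W1 :=
      ⟨h1, mem_normalizer_conj hgW (mem_normalizer_conj (hMW h.2) hw.2)⟩
    simpa [mul_assoc] using mem_normalizer_conj (inv_mem hgU) h2
  have hconj : ∀ w : Zs, ∃ w' : Zs, ((w' : X) : G) = (h : G) * ((w : X) : G) * (h : G)⁻¹ ∧
      f w' = f (w ^ cn : Zs) := by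
    intro w
    obtain ⟨w', hw', hfw'⟩ := hfeq h w
    have hπ : (f w').toAdd = (c : ZMod p) • (f w).toAdd := by rw [hfw', htri.1 _ w.2.2]
    have hmem : w' ∈ Zs :=
      ⟨by rw [hw']; exact hU' _ w.2.1, by rw [hπ, map_smul, w.2.2, smul_zero]⟩
    refine ⟨⟨w', hmem⟩, hw', ?_⟩
    rw [SubmonoidClass.coe_pow, map_pow]
    apply Multiplicative.toAdd.injective
    rw [toAdd_pow, hπ, ← hcnc, Nat.cast_smul_eq_nsmul]
  choose σ hσ hσf using hconj
  have hcommZ : ∀ a₁ a₂ : Zs, a₁ * a₂ = a₂ * a₁ := fun a₁ a₂ =>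
    Subtype.ext (Subtype.ext (hZab _ a₁.2.1.1 _ a₂.2.1.1))
  let ψ : Zs →* Zs := MonoidHom.mk' (fun w => σ w * (w ^ cn)⁻¹) (fun v w => by
    have e : σ (v * w) = σ v * σ w := by
      refine Subtype.ext (Subtype.ext ?_)
      simp [hσ, mul_assoc]
    rw [e, (Commute.mul_pow (hcommZ v w)), _root_.mul_inv_rev,
      hcommZ (w ^ cn)⁻¹ (v ^ cn)⁻¹, mul_assoc (σ v), ← mul_assoc (σ w),
      hcommZ (σ w) (v ^ cn)⁻¹]
    simp only [mul_assoc])
  obtain ⟨z, hz, hz1⟩ : ∃ z, σ z = z ^ cn ∧ z ≠ 1 := by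
    by_contra hall
    push Not at hall
    have hinj : Function.Injective ψ := (injective_iff_map_eq_one ψ).2 fun z hz => by
      by_contra hz1
      exact hz1 (hall z (mul_inv_eq_one.1 hz))
    obtain ⟨z', hz'⟩ := (Finite.injective_iff_surjective.1 hinj) ⟨w₁, hw₁U, hw₁a⟩
    apply hw₁ne
    have h1 : f (σ z' * (z' ^ cn)⁻¹ : Zs) = 1 := by
      rw [Subgroup.coe_mul, InvMemClass.coe_inv, map_mul, map_inv, hσf, mul_inv_cancel]
    rwa [show σ z' * (z' ^ cn)⁻¹ = ⟨w₁, hw₁U, hw₁a⟩ from hz'] at h1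
  have hzD : ((z : X) : G) ∈ D := hWD (hXW z.1.2)
  obtain ⟨e, he'⟩ := IsPGroup.iff_orderOf.1 hDp ⟨_, hzD⟩
  have he : orderOf ((z : X) : G) = p ^ e := by rw [← he', ← orderOf_coe]
  have hzne : ((z : X) : G) ≠ 1 := fun h1 => hz1 (Subtype.ext (Subtype.ext h1))
  cases e with
  | zero => exact absurd (orderOf_eq_one_iff.1 (by simpa using he)) hzne
  | succ e =>
    set u := ((z : X) : G) ^ p ^ e with hu
    have huU : u ∈ Z ⊓ W1 := pow_mem z.2.1 _
    refine ⟨g * u * g⁻¹, (mem_normalizer_conj hgU huU).1, k, hkH, ?_, cn, ?_, ?_⟩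
    · rw [show g * u * g⁻¹ = MulAut.conj g u from rfl, MulEquiv.orderOf_eq, hu,
        orderOf_pow' _ (pow_ne_zero _ hp.out.ne_zero), he,
        Nat.gcd_eq_right (pow_dvd_pow p e.le_succ), pow_succ,
        Nat.mul_div_cancel_left _ (pow_pos hp.out.pos e)]
    · rw [hcnc, orderOf_units, hc]
    · have h1 : (h : G) * ((z : X) : G) * (h : G)⁻¹ = ((z : X) : G) ^ cn := by
        rw [← hσ z, hz]
        simp
      rw [hkconj u huU.2, hu, ← conj_pow, h1, conj_pow, ← pow_mul, ← pow_mul, mul_comm cn]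

theorem Datum.concl (d : Datum G p V S H Z U W1 M) : Concl p H Z := ⟨d.involves, d.exists_elt⟩

end Cfsg.Agent.ZJFail
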