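import Cfsg.Agent.ZJFail.Pair
import Cfsg.Agent.ZJFail.Torus
import Cfsg.Agent.ZJFail.Rep

/-!
A quadratically acting element moving `Z` inside a section yields a split torus element of `N(Z)`,
an element of order `p` of `Z` on which it is a primitive scalar, and a section `F(p)`.
-/

set_option autoImplicit false
set_option linter.style.haveILetI false
set_option maxHeartbeats 1600000

namespace Cfsg.Agent.ZJFail

open Subgroup Cfsg.Agent.Fusion
open scoped commutatorElement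

variable {G : Type*} [Group G] [Finite G] {p : ℕ} [hp : Fact p.Prime]

theorem coprime_orderOf_pow (k : G) :
    ∃ j : ℕ, (orderOf (k ^ p ^ j)).Coprime p := by
  obtain ⟨j, m, hm, he⟩ := Nat.exists_eq_pow_mul_and_not_dvd (orderOf_pos k).ne' p hp.out.ne_one
  refine ⟨j, ?_⟩
  rw [orderOf_pow' k (pow_ne_zero _ hp.out.ne_zero), Nat.gcd_eq_right ⟨m, he⟩, he,
    Nat.mul_div_cancel_left _ (pow_pos hp.out.pos j)]
  exact (hp.out.coprime_iff_not_dvd.2 hm).symm

/-- The key construction. -/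
theorem concl_of_quadratic (hp2 : p ≠ 2) (S : Sylow p G) {H Z : Subgroup G}
    (hSH : (S : Subgroup G) ≤ H) (hHZ : H ≤ normalizer (Z : Set G))
    (hZab : ∀ a ∈ Z, ∀ b ∈ Z, a * b = b * a)
    {L T0 W0 W1 : Subgroup G} {x : G}
    (hT0L : T0 ≤ L) (hLT0 : L ≤ normalizer (T0 : Set G)) (hT0S : T0 ≤ (S : Subgroup G))
    (hW1T0 : W1 ≤ T0) (hW01 : W0 ≤ W1) (hW0Z : W0 ≤ Z)
    (hLW0 : L ≤ normalizer (W0 : Set G)) (hLW1 : L ≤ normalizer (W1 : Set G))
    (hcomm : ∀ v ∈ W1, ∀ w ∈ W1, ⁅v, w⁆ ∈ W0) (hpow : ∀ w ∈ W1, w ^ p ∈ W0)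
    (htriv : ∀ t ∈ T0, ∀ w ∈ W1, ⁅t, w⁆ ∈ W0)
    (hxL : x ∈ L) (hxS : x ∈ (S : Subgroup G)) (hquad : ∀ w ∈ W1, ⁅x, ⁅x, w⁆⁆ ∈ W0)
    (hRL : ¬ p ∣ ((S : Subgroup G) ⊓ L).relIndex L)
    (hgood : ∀ D : Subgroup G, D ≤ (S : Subgroup G) ⊓ L → T0 ≤ D →
      (∃ m ∈ L, m * x * m⁻¹ ∈ D) → ∀ g ∈ L, cj g D ≤ (S : Subgroup G) → Realised H D g)
    (hmove : ∃ l ∈ L, ∃ u ∈ Z ⊓ W1, l * x * l⁻¹ * u * (l * x * l⁻¹)⁻¹ ∉ Z ⊓ W1) :
    Concl p H Z := by
  classical
  obtain ⟨V, _, _, _, q, ρ, hq, hqmul, hq0, hqρ⟩ := exists_rep (p := p) hLW1 hLW0 hcomm hpow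
  obtain ⟨l, hl, u₀, hu₀, hu₀'⟩ := hmove
  set R := (S : Subgroup G) ⊓ L with hR
  have hRp : IsPGroup p R := S.2.to_le inf_le_left
  set U := Z ⊓ W1 with hU
  have hT0p : IsPGroup p T0 := S.2.to_le hT0S
  have hq1 : q 1 = 0 := (hq0 1).2 (one_mem _)
  -- the subspace of `Z`
  have hqinv : ∀ w : W1, q w⁻¹ = -q w := fun w => by
    have := hqmul w⁻¹ w
    rw [inv_mul_cancel, hq1] at this
    exact eq_neg_of_add_eq_zero_left this.symm
  let Ua : AddSubgroup V :=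
    { carrier := q '' {w : W1 | (w : G) ∈ U}
      add_mem' := by
        rintro - - ⟨v, hv, rfl⟩ ⟨w, hw, rfl⟩
        exact ⟨v * w, U.mul_mem hv hw, hqmul v w⟩
      zero_mem' := ⟨1, U.one_mem, hq1⟩
      neg_mem' := by
        rintro - ⟨v, hv, rfl⟩
        exact ⟨v⁻¹, U.inv_mem hv, hqinv v⟩ }
  let Ub : Submodule (ZMod p) V := AddSubgroup.toZModSubmodule p Ua
  have hUb : ∀ w : W1, q w ∈ Ub ↔ (w : G) ∈ U := by
    intro w
    refine ⟨fun hh => ?_, fun h => ⟨w, h, rfl⟩⟩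
    obtain ⟨v, hv, hvw⟩ : ∃ v : W1, (v : G) ∈ U ∧ q v = q w := hh
    have h0 : q (v⁻¹ * w) = 0 := by rw [hqmul, hqinv, hvw, neg_add_cancel]
    have := U.mul_mem hv (show ((v⁻¹ * w : W1) : G) ∈ U from
      ⟨hW0Z ((hq0 _).1 h0), (v⁻¹ * w).2⟩)
    simpa using this
  -- `p`-subgroups over `T0` and a conjugate of `x` normalize `U`
  have hUR : R ≤ normalizer (U : Set G) := fun r hr => mem_normalizer_of_forall fun w hw =>
    ⟨mem_normalizer_conj (hHZ (hSH hr.1)) hw.1, mem_normalizer_conj (hLW1 hr.2) hw.2⟩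
  have hgen : ∀ g ∈ L, ∀ D : Subgroup G, D ≤ R → T0 ≤ D → (∃ m ∈ L, m * x * m⁻¹ ∈ D) →
      cj g D ≤ (S : Subgroup G) → g ∈ normalizer (U : Set G) := by
    intro g hg D hDR hT0D hxD hgD
    obtain ⟨k, hk, hag⟩ := hgood D hDR hT0D hxD g hg hgD
    refine mem_normalizer_of_forall fun w hw => ⟨?_, mem_normalizer_conj (hLW1 hg) hw.2⟩
    rw [hag w (hT0D (hW1T0 hw.2))]
    exact mem_normalizer_conj (hHZ hk) hw.1
  have hDN : ∀ D : Subgroup G, D ≤ L → IsPGroup p D → T0 ≤ D → x ∈ D →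
      ∃ g ∈ L, g ∈ normalizer (U : Set G) ∧ cj g D ≤ R ∧ D ≤ normalizer (U : Set G) := by
    intro D hDL hD hT0D hxD
    obtain ⟨g, hg, hgD⟩ := exists_conj_le hD hDL hRp inf_le_right hRL
    set D0 := T0 ⊔ zpowers x with hD0
    have hD0D : D0 ≤ D := sup_le hT0D (zpowers_le.2 hxD)
    have hgU : g ∈ normalizer (U : Set G) := hgen g hg D0
      (sup_le (le_inf hT0S hT0L) (zpowers_le.2 ⟨hxS, hxL⟩)) le_sup_left
      ⟨1, one_mem _, by simpa using mem_sup_right (mem_zpowers x)⟩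
      ((cj_mono g hD0D).trans (hgD.trans inf_le_left))
    refine ⟨g, hg, hgU, hgD, fun d hd => ?_⟩
    have h1 : g * d * g⁻¹ ∈ normalizer (U : Set G) := hUR (hgD (conj_mem_cj.2 hd))
    simpa [mul_assoc] using mul_mem (mul_mem (inv_mem hgU) h1) hgU
  -- the pair
  set y := l * x * l⁻¹ with hy
  have hyL : y ∈ L := mul_mem (mul_mem hl hxL) (inv_mem hl)
  set xL : L := ⟨x, hxL⟩ with hxL'
  set yL : L := ⟨y, hyL⟩ with hyL'
  have hsub : ∀ (g : L) (w : W1) (w' : W1), (w' : G) = ⁅(g : G), (w : G)⁆ →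
      (ρ g - 1) (q w) = q w' := by
    intro g w w' h
    set w'' : W1 := ⟨g * w * (g : G)⁻¹, mem_normalizer_conj (hLW1 g.2) w.2⟩
    have e : w' = w'' * w⁻¹ := Subtype.ext (by rw [h, commutatorElement_def]; rfl)
    rw [LinearMap.sub_apply, hqρ g w w'' rfl, e, hqmul, hqinv, Module.End.one_apply,
      sub_eq_add_neg]
  have hwmem : ∀ g ∈ L, ∀ w ∈ W1, ⁅g, w⁆ ∈ W1 := fun g hg w hw => by
    rw [commutatorElement_def]
    exact mul_mem (mem_normalizer_conj (hLW1 hg) hw) (inv_mem hw)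
  have hx2 : (ρ xL - 1) * (ρ xL - 1) = 0 := by
    refine LinearMap.ext fun v => ?_
    obtain ⟨w, rfl⟩ := hq v
    rw [Module.End.mul_apply, hsub xL w ⟨_, hwmem x hxL w w.2⟩ rfl,
      hsub xL _ ⟨_, hwmem x hxL _ (hwmem x hxL w w.2)⟩ rfl, LinearMap.zero_apply, hq0]
    exact hquad w w.2
  have hyrep : ρ yL - 1 = ρ ⟨l, hl⟩ * (ρ xL - 1) * ρ ⟨l, hl⟩⁻¹ := by
    rw [mul_sub, sub_mul, ← map_mul, ← map_mul, mul_one, ← map_mul, mul_inv_cancel, map_one]
    rfl
  have hy2 : (ρ yL - 1) * (ρ yL - 1) = 0 := by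
    rw [hyrep]
    calc _ = ρ ⟨l, hl⟩ * ((ρ xL - 1) * (ρ ⟨l, hl⟩⁻¹ * ρ ⟨l, hl⟩) * (ρ xL - 1)) * ρ ⟨l, hl⟩⁻¹ := by
          simp only [mul_assoc]
      _ = 0 := by rw [← map_mul, inv_mul_cancel, map_one, mul_one, hx2, mul_zero, zero_mul]
  set M := T0 ⊔ closure ({x, y} : Set G) with hM
  have hclL : closure ({x, y} : Set G) ≤ L := (closure_le _).2 (by rintro g (rfl | rfl) <;> assumption)
  have hML : M ≤ L := sup_le hT0L hclL
  set xM : M := ⟨x, mem_sup_right (subset_closure (Or.inl rfl))⟩ with hxM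
  set yM : M := ⟨y, mem_sup_right (subset_closure (Or.inr rfl))⟩ with hyM
  let ρM : M →* Module.End (ZMod p) V := ρ.comp (inclusion hML)
  have hρT : ∀ m : M, (m : G) ∈ T0 → ρM m = 1 := by
    intro m hm
    refine LinearMap.ext fun v => ?_
    obtain ⟨w, rfl⟩ := hq v
    have h := hsub (inclusion hML m) w ⟨_, hwmem m (hML m.2) w w.2⟩ rfl
    have h0 : q ⟨_, hwmem m (hML m.2) w w.2⟩ = 0 := (hq0 _).2 (htriv m hm w w.2)
    replace h := h.trans h0
    rw [LinearMap.sub_apply, sub_eq_zero] at h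
    exact h
  have hρM : ∀ m : M, ∃ m₀ ∈ closure ({xM, yM} : Set M), ρM m = ρM m₀ := by
    rintro ⟨m, hm⟩
    have hm' : m ∈ ((T0 ⊔ closure ({x, y} : Set G) : Subgroup G) : Set G) := hm
    rw [coe_mul_of_right_le_normalizer_left T0 _ (hclL.trans hLT0)] at hm'
    obtain ⟨t, ht, c, hc, rfl⟩ := hm'
    have hcM : c ∈ M := mem_sup_right hc
    refine ⟨⟨c, hcM⟩, ?_, ?_⟩
    · have e : (closure ({xM, yM} : Set M)).map M.subtype = closure ({x, y} : Set G) := by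
        rw [MonoidHom.map_closure, Set.image_pair]
        rfl
      obtain ⟨c', hc', hcc⟩ := (show c ∈ (closure ({xM, yM} : Set M)).map M.subtype by rwa [e])
      rwa [show (⟨c, hcM⟩ : M) = c' from Subtype.ext hcc.symm]
    · rw [show (⟨t * c, hm⟩ : M) = ⟨t, mem_sup_left ht⟩ * ⟨c, hcM⟩ from rfl, map_mul,
        hρT ⟨t, mem_sup_left ht⟩ ht, one_mul]
  set a := ρM xM - 1 with ha
  set b := ρM yM - 1 with hb
  have ha2 : a * a = 0 := hx2
  have hb2 : b * b = 0 := hy2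
  -- the submodule generated by `Ub`
  set W : Submodule (ZMod p) V :=
    sInf {X | Ub ≤ X ∧ (∀ v ∈ X, a v ∈ X) ∧ ∀ v ∈ X, b v ∈ X} with hW
  have hUW : Ub ≤ W := le_sInf fun X hX => hX.1
  have hWinv : (∀ v ∈ W, a v ∈ W) ∧ ∀ v ∈ W, b v ∈ W := by
    constructor <;>
    · intro v hv
      rw [hW, Submodule.mem_sInf] at hv ⊢
      intro X hX
      first
        | exact hX.2.1 v (hv X hX)
        | exact hX.2.2 v (hv X hX)
  have hWM : ∀ m : M, ∀ v ∈ W, ρM m v ∈ W := by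
    intro m v hv
    obtain ⟨m₀, hm₀, e⟩ := hρM m
    rw [e]
    clear e
    rw [← Subgroup.mem_toSubmonoid, Subgroup.closure_toSubmonoid_of_finite] at hm₀
    induction hm₀ using Submonoid.closure_induction generalizing v with
    | mem g hg =>
      rcases hg with rfl | rfl
      · simpa [ha, LinearMap.sub_apply] using add_mem (hWinv.1 v hv) hv
      · simpa [hb, LinearMap.sub_apply] using add_mem (hWinv.2 v hv) hv
    | one => simpa using hv
    | mul g h _ _ hg hh =>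
      rw [map_mul, Module.End.mul_apply]
      exact hg _ (hh _ hv)
  let ρW := restrictRep ρM W hWM
  have hWsq : ∀ g : M, (ρM g - 1) * (ρM g - 1) = 0 → (ρW g - 1) * (ρW g - 1) = 0 := by
    intro g h
    refine LinearMap.ext fun v => Subtype.ext ?_
    have := LinearMap.congr_fun h (v : V)
    simpa [Module.End.mul_apply, LinearMap.sub_apply, ρW, restrictRep_coe] using this
  set θ := theta (ρW xM - 1) (ρW yM - 1) with hθ
  have hxU : x ∈ normalizer (U : Set G) := hUR ⟨hxS, hxL⟩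
  by_cases hnil : ∃ k, θ ^ k = 0
  · exfalso
    obtain ⟨k, hk⟩ := hnil
    obtain ⟨N, hN⟩ := pow_eq_one_of_theta_nilpotent ρW (hWsq _ ha2) (hWsq _ hb2) hk
    set K : Subgroup G := (ρW.toHomUnits.ker).map M.subtype with hK
    have hker : ∀ m : M, m ∈ ρW.toHomUnits.ker ↔ ρW m = 1 := fun m => by
      rw [MonoidHom.mem_ker, Units.ext_iff]
      rfl
    have hKM : M ≤ normalizer (K : Set G) := by
      intro m hm
      refine mem_normalizer_of_forall ?_
      rintro - ⟨k', hk', rfl⟩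
      exact ⟨⟨m, hm⟩ * k' * ⟨m, hm⟩⁻¹, (MonoidHom.normal_ker _).conj_mem _ hk' _, rfl⟩
    have hD0 : IsPGroup p (T0 ⊔ zpowers x : Subgroup G) :=
      S.2.to_le (sup_le hT0S (zpowers_le.2 hxS))
    obtain ⟨D, hD0D, hDM, hD, hDi⟩ := exists_sylow_ge hD0
      (sup_le le_sup_left (zpowers_le.2 xM.2) : T0 ⊔ zpowers x ≤ M)
    have hMKD : M ≤ K ⊔ D := by
      refine le_sup_of_pow_mem hKM hDi fun m hm => ⟨N, ⟨⟨m, hm⟩ ^ p ^ N, ?_, rfl⟩⟩
      rw [SetLike.mem_coe, hker, map_pow]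
      obtain ⟨m₀, hm₀, e⟩ := hρM ⟨m, hm⟩
      have : ρW ⟨m, hm⟩ = ρW m₀ :=
        LinearMap.ext fun v => Subtype.ext (LinearMap.congr_fun e (v : V))
      rw [this, hN m₀ hm₀]
    obtain ⟨-, -, -, -, hDU⟩ := hDN D (hDM.trans hML) hD (le_sup_left.trans hD0D)
      (hD0D (mem_sup_right (mem_zpowers x)))
    have hyKD : y ∈ ((K ⊔ D : Subgroup G) : Set G) := hMKD yM.2
    rw [coe_mul_of_right_le_normalizer_left K D (hDM.trans hKM)] at hyKD
    obtain ⟨k', ⟨k₁, hk₁, rfl⟩, d, hd, hkd⟩ := hyKD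
    apply hu₀'
    have hdu : d * u₀ * d⁻¹ ∈ U := mem_normalizer_conj (hDU hd) hu₀
    rw [SetLike.mem_coe, hker] at hk₁
    set w₁ : W1 := ⟨d * u₀ * d⁻¹, hdu.2⟩ with hw₁
    have hfix : ρM k₁ (q w₁) = q w₁ := by
      have h := congrArg Subtype.val (LinearMap.congr_fun hk₁ ⟨q w₁, hUW ((hUb w₁).2 hdu)⟩)
      simpa [ρW, restrictRep_coe] using h
    set w₂ : W1 := ⟨(k₁ : G) * w₁ * (k₁ : G)⁻¹, mem_normalizer_conj (hLW1 (hML k₁.2)) w₁.2⟩
    have h2 : ρM k₁ (q w₁) = q w₂ := hqρ (inclusion hML k₁) w₁ w₂ rfl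
    rw [hfix] at h2
    have h3 : (w₂ : G) ∈ U := (hUb w₂).1 (h2 ▸ (hUb w₁).2 hdu)
    have e : y * u₀ * y⁻¹ = w₂ := by
      rw [← hkd]
      simp [w₂, w₁, mul_assoc]
    rw [e]
    exact h3
  push Not at hnil
  -- pass to an irreducible quotient of the stable range
  obtain ⟨n, hn⟩ : ∃ n : ℕ, LinearMap.range (θ ^ (n + 1)) = LinearMap.range (θ ^ n) := by
    have hle : ∀ n, LinearMap.range (θ ^ (n + 1)) ≤ LinearMap.range (θ ^ n) := fun n => by
      rw [pow_succ]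
      exact LinearMap.range_comp_le_range _ _
    by_contra h
    push Not at h
    haveI : Finite (Submodule (ZMod p) W) := Finite.of_injective _ SetLike.coe_injective
    exact not_injective_infinite_finite _
      (strictAnti_nat_of_succ_lt (f := fun n => LinearMap.range (θ ^ n))
        fun n => lt_of_le_of_ne (hle n) (h n)).injective
  set Rg := LinearMap.range (θ ^ n) with hRg
  have hθρ : ∀ m : M, Commute (ρW m) θ := by
    intro m
    obtain ⟨m₀, hm₀, e⟩ := hρM m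
    have : ρW m = ρW m₀ := LinearMap.ext fun v => Subtype.ext (LinearMap.congr_fun e (v : V))
    rw [this]
    rw [← Subgroup.mem_toSubmonoid, Subgroup.closure_toSubmonoid_of_finite] at hm₀
    clear this e
    induction hm₀ using Submonoid.closure_induction with
    | mem g hg =>
      rcases hg with rfl | rfl
      · simpa [θ] using (commute_theta_left (hWsq _ ha2) (b := ρW yM - 1)).add_left
          (Commute.one_left θ)
      · simpa [θ] using (commute_theta_right (hWsq _ hb2) (a := ρW xM - 1)).add_left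
          (Commute.one_left θ)
    | one => simp
    | mul g h _ _ hg hh => rw [map_mul]; exact hg.mul_left hh
  have hRinv : ∀ m : M, ∀ v ∈ Rg, ρW m v ∈ Rg := by
    rintro m - ⟨v, rfl⟩
    exact ⟨ρW m v, (LinearMap.congr_fun (((hθρ m).pow_right n).eq) v).symm⟩
  let ρR := restrictRep ρW Rg hRinv
  haveI : Finite (Submodule (ZMod p) Rg) := Finite.of_injective _ SetLike.coe_injective
  have hRne : (⊥ : Submodule (ZMod p) Rg) ≠ ⊤ := by
    intro h
    apply hnil n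
    refine LinearMap.ext fun v => ?_
    have h1 : (⟨(θ ^ n) v, v, rfl⟩ : Rg) ∈ (⊥ : Submodule (ZMod p) Rg) := h ▸ Submodule.mem_top
    simpa using congrArg Subtype.val ((Submodule.mem_bot (ZMod p)).1 h1)
  obtain ⟨Kq, hKq, hKqmax⟩ := Set.exists_max_image
    {X : Submodule (ZMod p) Rg | X ≠ ⊤ ∧ (∀ m : M, ∀ v ∈ X, ρR m v ∈ X)} (fun X => Nat.card X)
    (Set.toFinite _) ⟨⊥, hRne, fun m v hv => by
      rw [(Submodule.mem_bot (ZMod p)).1 hv, map_zero]; exact zero_mem _⟩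
  let ρ' := quotRep ρR Kq hKq.2
  haveI : Finite (Rg ⧸ Kq) := Finite.of_surjective _ Kq.mkQ_surjective
  haveI : Nontrivial (Rg ⧸ Kq) := Submodule.Quotient.nontrivial_iff.2 hKq.1
  let π : W →ₗ[ZMod p] Rg ⧸ Kq := Kq.mkQ ∘ₗ (θ ^ n).rangeRestrict
  have hπ : ∀ (m : M) (v : W), π (ρW m v) = ρ' m (π v) := by
    intro m v
    show Kq.mkQ _ = ρ' m (Kq.mkQ _)
    rw [quotRep_mk]
    congr 1
    exact Subtype.ext (LinearMap.congr_fun (((hθρ m).pow_right n).eq) v).symm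
  have hπsurj : Function.Surjective π :=
    (Kq.mkQ_surjective).comp (LinearMap.surjective_rangeRestrict _)
  have hsq' : ∀ g : M, (ρW g - 1) * (ρW g - 1) = 0 → (ρ' g - 1) * (ρ' g - 1) = 0 := by
    intro g h
    refine LinearMap.ext fun z => ?_
    obtain ⟨v, rfl⟩ := hπsurj z
    have h1 : ∀ w, (ρ' g - 1) (π w) = π ((ρW g - 1) w) := fun w => by
      simp [LinearMap.sub_apply, hπ]
    rw [Module.End.mul_apply, h1, h1, ← Module.End.mul_apply, h, LinearMap.zero_apply,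
      LinearMap.zero_apply, map_zero]
  have hπθ : ∀ v, theta (ρ' xM - 1) (ρ' yM - 1) (π v) = π (θ v) := by
    intro v
    simp [θ, theta, Module.End.mul_apply, LinearMap.sub_apply, hπ]
  have hθ' : theta (ρ' xM - 1) (ρ' yM - 1) ≠ 0 := by
    intro h
    obtain ⟨z, hz⟩ := exists_ne (0 : Rg ⧸ Kq)
    obtain ⟨r, rfl⟩ := Kq.mkQ_surjective z
    obtain ⟨v, hv⟩ := r.2
    obtain ⟨v', hv'⟩ : (θ ^ n) v ∈ LinearMap.range (θ ^ (n + 1)) := hn ▸ ⟨v, rfl⟩
    apply hz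
    have h1 := hπθ v'
    rw [h, LinearMap.zero_apply] at h1
    rw [h1]
    show Kq.mkQ r = Kq.mkQ _
    congr 1
    refine Subtype.ext ?_
    show (r : W) = (θ ^ n) (θ v')
    rw [← Module.End.mul_apply, ← pow_succ, hv', hv]
  have hirr : ∀ X : Submodule (ZMod p) (Rg ⧸ Kq), (∀ v ∈ X, (ρ' xM - 1) v ∈ X) →
      (∀ v ∈ X, (ρ' yM - 1) v ∈ X) → X = ⊥ ∨ X = ⊤ := by
    intro X hX1 hX2
    have hXM : ∀ m : M, ∀ v ∈ X, ρ' m v ∈ X := by
      intro m v hv
      obtain ⟨m₀, hm₀, e⟩ := hρM m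
      have e' : ρ' m = ρ' m₀ := by
        refine LinearMap.ext fun z => ?_
        obtain ⟨w, rfl⟩ := hπsurj z
        rw [← hπ, ← hπ]
        exact congrArg π (Subtype.ext (LinearMap.congr_fun e (w : V)))
      rw [e']
      clear e e'
      rw [← Subgroup.mem_toSubmonoid, Subgroup.closure_toSubmonoid_of_finite] at hm₀
      induction hm₀ using Submonoid.closure_induction generalizing v with
      | mem g hg =>
        rcases hg with rfl | rfl
        · simpa [LinearMap.sub_apply] using add_mem (hX1 v hv) hv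
        · simpa [LinearMap.sub_apply] using add_mem (hX2 v hv) hv
      | one => simpa using hv
      | mul g h _ _ hg hh =>
        rw [map_mul, Module.End.mul_apply]
        exact hg _ (hh _ hv)
    rw [or_iff_not_imp_right]
    intro hXtop
    have hmem : X.comap Kq.mkQ ∈ {X : Submodule (ZMod p) Rg | X ≠ ⊤ ∧
        (∀ m : M, ∀ v ∈ X, ρR m v ∈ X)} := by
      refine ⟨fun h => hXtop ?_, fun m v hv => ?_⟩
      · rw [eq_top_iff]
        intro z _
        obtain ⟨r, rfl⟩ := Kq.mkQ_surjective z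
        exact (h ▸ Submodule.mem_top : r ∈ X.comap Kq.mkQ)
      · show Kq.mkQ (ρR m v) ∈ X
        rw [← quotRep_mk]
        exact hXM m _ hv
    have heq : X.comap Kq.mkQ = Kq := by
      have hle : Kq ≤ X.comap Kq.mkQ := fun r hr => by
        show Kq.mkQ r ∈ X
        rw [Submodule.mkQ_apply, (Submodule.Quotient.mk_eq_zero Kq).2 hr]
        exact zero_mem _
      refine (SetLike.coe_injective (Set.eq_of_subset_of_ncard_le hle ?_ (Set.toFinite _))).symm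
      exact hKqmax _ hmem
    rw [eq_bot_iff]
    intro z hz
    obtain ⟨r, rfl⟩ := Kq.mkQ_surjective z
    have : r ∈ Kq := heq ▸ (show r ∈ X.comap Kq.mkQ from hz)
    rw [Submodule.mem_bot, Submodule.mkQ_apply, (Submodule.Quotient.mk_eq_zero Kq).2 this]
  obtain ⟨e₁, e₂, m, c, hc, -, ha1, ha22, he1, hmker, hme2⟩ :=
    exists_torus hp2 ρ' (hsq' _ (hWsq _ ha2)) (hsq' _ (hWsq _ hb2)) hθ' hirr
  have htm : Tri ρ' xM e₁ e₂ m c := ⟨hmker, 0, by rw [hme2, zero_smul, add_zero]⟩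
  let P1 : Subgroup G := ({
      carrier := {g | Tri ρ' xM e₁ e₂ g 1}
      one_mem' := Tri.one ρ' xM e₁ e₂
      mul_mem' := fun {u v} hu hv => mul_one (1 : (ZMod p)ˣ) ▸ Tri.mul ha1 hu hv
      inv_mem' := fun {u} hu => inv_one (G := (ZMod p)ˣ) ▸ Tri.inv ha1 hu } : Subgroup M).map
        M.subtype
  have hP1M : P1 ≤ M := map_subtype_le _
  have hP1 : ∀ g : M, (g : G) ∈ P1 ↔ Tri ρ' xM e₁ e₂ g 1 := by
    intro g
    refine ⟨fun hg => ?_, fun h => ⟨g, h, rfl⟩⟩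
    obtain ⟨g', hg', e⟩ := hg
    rw [← show g' = g from Subtype.ext e]
    exact hg'
  have hT0P1 : T0 ≤ P1 := by
    intro t ht
    refine (hP1 ⟨t, mem_sup_left ht⟩).2 ?_
    have e : ρ' ⟨t, mem_sup_left ht⟩ = 1 := by
      refine LinearMap.ext fun z => ?_
      obtain ⟨w, rfl⟩ := hπsurj z
      rw [← hπ]
      exact congrArg π (Subtype.ext (LinearMap.congr_fun (hρT ⟨t, mem_sup_left ht⟩ ht) (w : V)))
    exact ⟨fun v _ => by simp [e], 0, by simp [e]⟩
  have hρx : ∀ v, ρ' xM v = v + (ρ' xM - 1) v := fun v => by simp [LinearMap.sub_apply]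
  have hxP1 : x ∈ P1 := (hP1 xM).2
    ⟨fun v hv => by rw [hρx, hv]; simp, 1, by rw [hρx, ha22]; simp⟩
  have hmN : (m : G) ∈ normalizer (P1 : Set G) := by
    refine mem_normalizer_of_forall fun u hu => ?_
    have h := Tri.mul ha1 (Tri.mul ha1 htm ((hP1 ⟨u, hP1M hu⟩).1 hu)) (Tri.inv ha1 htm)
    rw [mul_one, mul_inv_cancel] at h
    exact (hP1 _).2 h
  obtain ⟨D, hD0D, hDP1, hD, hDi⟩ := exists_sylow_ge
    (S.2.to_le (sup_le hT0S (zpowers_le.2 hxS)) : IsPGroup p (T0 ⊔ zpowers x : Subgroup G))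
    (sup_le hT0P1 (zpowers_le.2 hxP1))
  obtain ⟨f, hf, hfD⟩ := exists_conj_of_relIndex (hD.map (MulAut.conj (m : G)).toMonoidHom) hD
    ((cj_mono (m : G) hDP1).trans (cj_eq_of_mem hmN).le) hDP1
    (by rwa [← cj_eq_of_mem hmN, relIndex_map_map_of_injective _ _ (MulEquiv.injective _)]) hDi
  set h0 : M := ⟨f, hP1M hf⟩ * m with hh0
  have hh0D : (h0 : G) ∈ normalizer (D : Set G) := by
    rw [← cj_eq_iff_mem_normalizer, hh0, Subgroup.coe_mul, ← cj_cj]
    exact hfD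
  have hth0 : Tri ρ' xM e₁ e₂ h0 c := by
    simpa using Tri.mul ha1 ((hP1 ⟨f, hP1M hf⟩).1 hf) htm
  obtain ⟨g, hg, hgU, hgD, -⟩ := hDN D (hDP1.trans (hP1M.trans hML)) hD
    (le_sup_left.trans hD0D) (hD0D (mem_sup_right (mem_zpowers x)))
  have hT0D' : T0 ≤ cj g D := by
    rw [← cj_eq_of_mem (hLT0 hg)]
    exact cj_mono g (le_sup_left.trans hD0D)
  have hgh0 : g * (h0 : G) * g⁻¹ ∈ normalizer (cj g D : Set G) := by
    rw [← cj_normalizer]
    exact conj_mem_cj.2 hh0D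
  obtain ⟨k₀, hk₀, hag₀⟩ := hgood (cj g D) hgD hT0D'
    ⟨g, hg, conj_mem_cj.2 (hD0D (mem_sup_right (mem_zpowers x)))⟩ _
    (mul_mem (mul_mem hg (hML h0.2)) (inv_mem hg))
    ((cj_eq_of_mem hgh0).le.trans (hgD.trans inf_le_left))
  obtain ⟨j, hj⟩ := coprime_orderOf_pow (p := p) k₀
  set k := k₀ ^ p ^ j with hk
  set h := h0 ^ p ^ j with hh
  have hth : Tri ρ' xM e₁ e₂ h c := by
    have := Tri.pow ha1 hth0 (p ^ j)
    rwa [units_pow_p_pow] at this
  have hag : Agree (g * (h : G) * g⁻¹) k (cj g D) := by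
    have := agree_pow hag₀ hgh0 (p ^ j)
    rwa [conj_pow, ← SubmonoidClass.coe_pow] at this
  -- the part of `W1` over `W`
  let X0 : Subgroup W1 :=
    { carrier := {w | q w ∈ W}
      one_mem' := by simp [hq1]
      mul_mem' := fun {v w} hv hw => by simp only [Set.mem_setOf_eq, hqmul]; exact add_mem hv hw
      inv_mem' := fun {v} hv => by simp only [Set.mem_setOf_eq, hqinv]; exact neg_mem hv }
  set X := X0.map W1.subtype with hX
  have hXW : X ≤ W1 := map_subtype_le _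
  have hXq : ∀ w : X, q ⟨w, hXW w.2⟩ ∈ W := by
    rintro ⟨-, w, hw, rfl⟩
    exact hw
  let φ : X →* Multiplicative (Rg ⧸ Kq) := MonoidHom.mk'
    (fun w => Multiplicative.ofAdd (π ⟨q ⟨w, hXW w.2⟩, hXq w⟩)) (fun v w => by
      rw [← ofAdd_add, ← map_add]
      congr 2
      exact Subtype.ext (hqmul ⟨v, hXW v.2⟩ ⟨w, hXW w.2⟩))
  have hφ : Function.Surjective φ := by
    intro z
    obtain ⟨⟨v, hv⟩, hπv⟩ := hπsurj z.toAdd
    obtain ⟨w, rfl⟩ := hq v
    exact ⟨⟨w, w, hv, rfl⟩, congrArg Multiplicative.ofAdd hπv⟩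
  have hφeq : ∀ (s : M) (w : X), ∃ w' : X, (w' : G) = s * w * (s : G)⁻¹ ∧
      (φ w').toAdd = ρ' s (φ w).toAdd := by
    intro s w
    set w' : W1 := ⟨s * w * (s : G)⁻¹, mem_normalizer_conj (hLW1 (hML s.2)) (hXW w.2)⟩
    have hqw : q w' = ρM s (q ⟨w, hXW w.2⟩) := (hqρ (inclusion hML s) ⟨w, hXW w.2⟩ w' rfl).symm
    have hW' : q w' ∈ W := by rw [hqw]; exact hWM s _ (hXq w)
    refine ⟨⟨w', w', hW', rfl⟩, rfl, ?_⟩
    show π _ = ρ' s (π _)
    rw [← hπ]
    exact congrArg π (Subtype.ext hqw)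
  have hUX : ∃ w : X, (w : G) ∈ U ∧ φ w ≠ 1 := by
    by_contra hall
    push Not at hall
    have hkerinv : ∀ s : M, ∀ v ∈ (LinearMap.ker π).map W.subtype, ρM s v ∈
        (LinearMap.ker π).map W.subtype := by
      rintro s - ⟨v, hv, rfl⟩
      exact ⟨ρW s v, LinearMap.mem_ker.2 (by rw [hπ, LinearMap.mem_ker.1 hv, map_zero]), rfl⟩
    have hmem : (LinearMap.ker π).map W.subtype ∈
        {Y : Submodule (ZMod p) V | Ub ≤ Y ∧ (∀ v ∈ Y, a v ∈ Y) ∧ ∀ v ∈ Y, b v ∈ Y} := by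
      refine ⟨?_, fun v hv => ?_, fun v hv => ?_⟩
      · intro v hv
        obtain ⟨w, rfl⟩ := hq v
        exact ⟨⟨q w, hUW hv⟩, LinearMap.mem_ker.2 (congrArg Multiplicative.toAdd
          (hall ⟨w, w, hUW hv, rfl⟩ ((hUb w).1 hv))), rfl⟩
      · rw [ha, LinearMap.sub_apply]
        exact sub_mem (hkerinv _ v hv) (by simpa using hv)
      · rw [hb, LinearMap.sub_apply]
        exact sub_mem (hkerinv _ v hv) (by simpa using hv)
    have hWle : W ≤ (LinearMap.ker π).map W.subtype := sInf_le hmem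
    obtain ⟨z, hz⟩ := exists_ne (0 : Rg ⧸ Kq)
    obtain ⟨v, rfl⟩ := hπsurj z
    obtain ⟨v', hv', e⟩ := hWle v.2
    exact hz ((Subtype.ext e : v' = v) ▸ LinearMap.mem_ker.1 hv')
  exact Datum.concl (V := Rg ⧸ Kq)
    { ρ := ρ', xM := xM, h := h, D := D, g := g, k := k, X := X, f := φ, e₁ := e₁, e₂ := e₂,
      c := c, hp2 := hp2, hc := hc,
      hsq := fun v => by
        rw [← Module.End.mul_apply, hsq' _ (hWsq _ ha2), LinearMap.zero_apply]
      ha1 := ha1, ha2 := ha22, he1 := he1, htri := hth, hf := hφ, hfeq := hφeq, hXW := hXW,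
      hWD := hW1T0.trans (le_sup_left.trans hD0D), hDp := hD,
      hxD := hD0D (mem_sup_right (mem_zpowers x)),
      hhD := by rw [hh, SubmonoidClass.coe_pow]; exact pow_mem hh0D _,
      hgD := hgD.trans inf_le_left, hag := hag, hcop := hj, hkH := pow_mem hk₀ _, hSH := hSH,
      hHZ := hHZ, hZab := hZab, hUeq := hU, hgU := hgU, hgW := hLW1 hg,
      hMW := hML.trans hLW1, hxU := hxU, hUX := hUX }

end Cfsg.Agent.ZJFail
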