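import Cfsg.Agent.ZJFail.Base
import Cfsg.Agent.EvenLocal.Involved

/-!
Recognizing `F(p)` as a section.
-/

set_option autoImplicit false

namespace Cfsg.Agent.ZJFail

open Subgroup Matrix
open scoped MatrixGroups

variable {K : Type*} [Field K]

/-- The translation matrix. -/
def tr (v : Fin 2 → K) : SL(3, K) :=
  ⟨!![1, 0, v 0; 0, 1, v 1; 0, 0, 1], by simp [Matrix.det_fin_three]⟩

/-- The block matrix of an upper triangular element of `SL₂`. -/
def blk (a : Kˣ) (r : K) : SL(3, K) :=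
  ⟨!![(a : K), r, 0; 0, ((a⁻¹ : Kˣ) : K), 0; 0, 0, 1], by simp [Matrix.det_fin_three]⟩

@[simp] theorem coe_tr (v : Fin 2 → K) :
    (tr v : Matrix (Fin 3) (Fin 3) K) = !![1, 0, v 0; 0, 1, v 1; 0, 0, 1] := rfl

@[simp] theorem coe_blk (a : Kˣ) (r : K) :
    (blk a r : Matrix (Fin 3) (Fin 3) K) =
      !![(a : K), r, 0; 0, ((a⁻¹ : Kˣ) : K), 0; 0, 0, 1] := rfl

theorem tr_add (v w : Fin 2 → K) : tr (v + w) = tr v * tr w := by
  ext i j
  fin_cases i <;> fin_cases j <;>
    simp [Matrix.SpecialLinearGroup.coe_mul, Matrix.mul_apply, Fin.sum_univ_three, add_comm]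

theorem blk_mul (a b : Kˣ) (r s : K) :
    blk a r * blk b s = blk (a * b) ((a : K) * s + r * ((b⁻¹ : Kˣ) : K)) := by
  ext i j
  fin_cases i <;> fin_cases j <;>
    simp [Matrix.SpecialLinearGroup.coe_mul, Matrix.mul_apply, Fin.sum_univ_three, mul_comm]

theorem blk_one_zero : blk (1 : Kˣ) (0 : K) = 1 := by
  ext i j
  fin_cases i <;> fin_cases j <;> simp

theorem blk_mul_tr (a : Kˣ) (r : K) (v : Fin 2 → K) :
    blk a r * tr v = tr ![(a : K) * v 0 + r * v 1, ((a⁻¹ : Kˣ) : K) * v 1] * blk a r := by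
  ext i j
  fin_cases i <;> fin_cases j <;>
    simp [Matrix.SpecialLinearGroup.coe_mul, Matrix.mul_apply, Fin.sum_univ_three]

theorem blk_inj {a b : Kˣ} {r s : K}
    (h : ∀ v : Fin 2 → K, ![(a : K) * v 0 + r * v 1, ((a⁻¹ : Kˣ) : K) * v 1] =
      ![(b : K) * v 0 + s * v 1, ((b⁻¹ : Kˣ) : K) * v 1]) : blk a r = blk b s := by
  have h0 : (a : K) = b := by simpa using congrFun (h ![1, 0]) 0
  have h1 : r = s := by simpa using congrFun (h ![0, 1]) 0
  rw [Units.ext h0, h1]

theorem mem_fOver_tr (v : Fin 2 → K) : tr v ∈ Cfsg.fOver K :=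
  subset_closure ⟨rfl, rfl, rfl, rfl⟩

theorem mem_fOver_blk (a : Kˣ) (r : K) : blk a r ∈ Cfsg.fOver K :=
  subset_closure ⟨rfl, rfl, rfl, rfl⟩

variable {p : ℕ} [hp : Fact p.Prime]

/-- `F(p)` is involved when two elements act on a two-dimensional section as a split torus and a
transvection, while a third one commuting with both inverts the section. -/
theorem involves_fOver {G : Type*} [Group G] [Finite G] {H P : Subgroup G}
    (hPH : P ≤ H) (Φ : P →* Multiplicative (Fin 2 → ZMod p)) (hΦ : Function.Surjective Φ)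
    {k d t : G} (hk : k ∈ H) (hd : d ∈ H)
    (hkP : k ∈ normalizer (P : Set G)) (hdP : d ∈ normalizer (P : Set G))
    (htk : Commute t k) (htd : Commute t d)
    (ht : ∀ w : P, t * w * t⁻¹ = w → (Φ w).toAdd = 0)
    {c : (ZMod p)ˣ} (hc : orderOf c = p - 1) {r : ZMod p}
    (hkΦ : ∀ w w' : P, (w' : G) = k * w * k⁻¹ → (Φ w').toAdd =
      ![(c : ZMod p) * (Φ w).toAdd 0 + r * (Φ w).toAdd 1,
        ((c⁻¹ : (ZMod p)ˣ) : ZMod p) * (Φ w).toAdd 1])
    (hdΦ : ∀ w w' : P, (w' : G) = d * w * d⁻¹ → (Φ w').toAdd =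
      ![(Φ w).toAdd 0 + (Φ w).toAdd 1, (Φ w).toAdd 1]) :
    Cfsg.Involves ↥(Cfsg.fOver (ZMod p)) ↥H := by
  classical
  set B := closure ({k, d} : Set G) with hB
  -- each element of `B` acts on the section as a block matrix
  let Act : G → SL(3, ZMod p) → Prop := fun g N => g ∈ normalizer (P : Set G) ∧
    ∃ (a : (ZMod p)ˣ) (s : ZMod p), N = blk a s ∧ ∀ w w' : P, (w' : G) = g * w * g⁻¹ →
      (Φ w').toAdd = ![(a : ZMod p) * (Φ w).toAdd 0 + s * (Φ w).toAdd 1,
        ((a⁻¹ : (ZMod p)ˣ) : ZMod p) * (Φ w).toAdd 1]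
  have hmul : ∀ g g' N N', Act g N → Act g' N' → Act (g * g') (N * N') := by
    rintro g g' N N' ⟨hgP, a, s, rfl, hg⟩ ⟨hgP', a', s', rfl, hg'⟩
    refine ⟨mul_mem hgP hgP', a * a', _, blk_mul a a' s s', fun w w' hw => ?_⟩
    set w₁ : P := ⟨g' * w * g'⁻¹, mem_normalizer_conj hgP' w.2⟩
    rw [hg w₁ w' (by rw [hw]; simp only [w₁, _root_.mul_inv_rev, mul_assoc]), hg' w w₁ rfl]
    ext i
    fin_cases i <;> simp [-Units.val_inv_eq_inv_val] <;> ring
  have hinv : ∀ g N, Act g N → Act g⁻¹ N⁻¹ := by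
    rintro g N ⟨hgP, a, s, rfl, hg⟩
    have e : (blk a s)⁻¹ = blk a⁻¹ (-s) := by
      refine inv_eq_of_mul_eq_one_right ?_
      rw [blk_mul, mul_inv_cancel]
      convert blk_one_zero (K := ZMod p) using 2
      simp
      ring
    refine ⟨inv_mem hgP, a⁻¹, -s, e, fun w w' hw => ?_⟩
    have h := hg w' w (by rw [hw]; group)
    have h0 := congrFun h 0
    have h1 := congrFun h 1
    simp only [Matrix.cons_val_zero, Matrix.cons_val_one] at h0 h1
    ext i
    fin_cases i
    · simp only [inv_inv, Fin.zero_eta, Matrix.cons_val_zero]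
      rw [h0, h1]
      have := a.mul_inv
      have := a.inv_mul
      linear_combination (-(Φ w').toAdd 0 + 0 * s) * this
    · simp only [inv_inv, Fin.mk_one, Matrix.cons_val_one, Matrix.cons_val_zero]
      rw [h1, ← mul_assoc, a.mul_inv, one_mul]
  have hBact : ∀ g ∈ B, ∃ N, Act g N := by
    intro g hg
    induction hg using closure_induction with
    | mem g hg =>
      rcases hg with rfl | rfl
      · exact ⟨_, hkP, c, r, rfl, hkΦ⟩
      · exact ⟨_, hdP, 1, 1, rfl, fun w w' hw => by simpa using hdΦ w w' hw⟩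
    | one =>
      refine ⟨_, one_mem _, 1, 0, rfl, fun w w' hw => ?_⟩
      have : w' = w := Subtype.ext (by simpa using hw)
      subst this
      ext i
      fin_cases i <;> simp
    | mul g h _ _ hg hh =>
      obtain ⟨N, hN⟩ := hg
      obtain ⟨N', hN'⟩ := hh
      exact ⟨_, hmul _ _ _ _ hN hN'⟩
    | inv g _ hg =>
      obtain ⟨N, hN⟩ := hg
      exact ⟨_, hinv _ _ hN⟩
  have huniq : ∀ g N N', Act g N → Act g N' → N = N' := by
    rintro g N N' ⟨hgP, a, s, rfl, h⟩ ⟨-, a', s', rfl, h'⟩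
    refine blk_inj fun v => ?_
    obtain ⟨w, hw⟩ := hΦ (Multiplicative.ofAdd v)
    have h1 := h w ⟨g * w * g⁻¹, mem_normalizer_conj hgP w.2⟩ rfl
    rw [h' w ⟨g * w * g⁻¹, mem_normalizer_conj hgP w.2⟩ rfl, hw] at h1
    simpa [-Units.val_inv_eq_inv_val] using h1.symm
  have hBt : ∀ g ∈ B, t * g * t⁻¹ = g := by
    intro g hg
    have : g ∈ centralizer ({t} : Set G) := by
      refine (closure_le _).2 ?_ hg
      rintro x (rfl | rfl) <;> rw [SetLike.mem_coe, mem_centralizer_singleton_iff]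
      · exact htk.eq.symm
      · exact htd.eq.symm
    rw [mem_centralizer_singleton_iff] at this
    rw [← this, mul_inv_cancel_right]
  have hPB : ∀ z : P, (z : G) ∈ B → (Φ z).toAdd = 0 := fun z hz => ht z (hBt _ hz)
  have hzact : ∀ z : P, Act (z : G) 1 := by
    intro z
    refine ⟨le_normalizer z.2, 1, 0, blk_one_zero.symm, fun w w' hw => ?_⟩
    have : w' = z * w * z⁻¹ := Subtype.ext hw
    rw [this, map_mul Φ, map_mul Φ, map_inv Φ, mul_comm (Φ z) (Φ w), mul_inv_cancel_right]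
    ext i
    fin_cases i <;> simp
  choose! N hN using hBact
  -- the map on `P B`
  set Γ := P ⊔ B with hΓ
  have hBP : B ≤ normalizer (P : Set G) := (closure_le _).2 (by rintro x (rfl | rfl) <;> assumption)
  have hdec : ∀ g : Γ, ∃ q : P × B, (q.1 : G) * (q.2 : G) = g := by
    intro g
    have hg : (g : G) ∈ ((P ⊔ B : Subgroup G) : Set G) := g.2
    rw [coe_mul_of_right_le_normalizer_left P B hBP] at hg
    obtain ⟨w, hw, b, hb, hwb⟩ := hg
    exact ⟨(⟨w, hw⟩, ⟨b, hb⟩), hwb⟩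
  choose q hq using hdec
  let val : P × B → SL(3, ZMod p) := fun q => tr ((Φ q.1).toAdd) * N q.2
  have hval : ∀ q q' : P × B, (q.1 : G) * (q.2 : G) = q'.1 * q'.2 → val q = val q' := by
    rintro ⟨w, b⟩ ⟨w', b'⟩ h
    simp only at h
    set z : P := w'⁻¹ * w with hz
    have hzb : (b' : G) = z * b := by
      rw [hz, Subgroup.coe_mul, InvMemClass.coe_inv, mul_assoc, h, inv_mul_cancel_left]
    have hzB : (z : G) ∈ B := by
      have : (z : G) = b' * (b : G)⁻¹ := by rw [hzb, mul_inv_cancel_right]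
      rw [this]
      exact mul_mem b'.2 (inv_mem b.2)
    have h1 : Φ w = Φ w' := by
      have := hPB z hzB
      rw [hz, map_mul, map_inv, toAdd_mul, toAdd_inv, neg_add_eq_zero] at this
      exact Multiplicative.toAdd.injective this.symm
    have h2 : N (b' : G) = N (b : G) := by
      refine huniq _ _ _ (hN _ b'.2) ?_
      rw [hzb, ← one_mul (N (b : G))]
      exact hmul _ _ _ _ (hzact z) (hN _ b.2)
    show tr _ * N (b : G) = tr _ * N (b' : G)
    rw [h1, h2]
  let f : Γ →* SL(3, ZMod p) := MonoidHom.mk' (fun g => val (q g)) (by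
    intro g g'
    obtain ⟨hbP, a, s, hNb, hb⟩ := hN _ (q g).2.2
    set w₁ : P := ⟨(q g).2 * (q g').1 * ((q g).2 : G)⁻¹, mem_normalizer_conj hbP (q g').1.2⟩
    rw [hval (q (g * g')) ((q g).1 * w₁, (q g).2 * (q g').2) (by
      rw [hq]
      show (g : G) * g' = (q g).1 * ((q g).2 * (q g').1 * ((q g).2 : G)⁻¹) * ((q g).2 * (q g').2)
      rw [← hq g, ← hq g']
      simp [_root_.mul_inv_rev, mul_assoc])]
    have hN2 : N (((q g).2 * (q g').2 : B) : G) = N (q g).2 * N (q g').2 :=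
      huniq _ _ _ (hN _ ((q g).2 * (q g').2).2) (hmul _ _ _ _ (hN _ (q g).2.2) (hN _ (q g').2.2))
    show tr (Φ ((q g).1 * w₁)).toAdd * N _ = tr (Φ (q g).1).toAdd * N _ * (tr _ * N _)
    rw [hN2, map_mul, toAdd_mul, tr_add, hb (q g').1 w₁ rfl, hNb]
    simp only [← mul_assoc]
    rw [mul_assoc (tr (Φ (q g).1).toAdd) (blk a s) (tr (Φ (q g').1).toAdd), blk_mul_tr]
    simp only [mul_assoc])
  have hf : ∀ g, f g ∈ Cfsg.fOver (ZMod p) := by
    intro g
    obtain ⟨-, a, s, hNb, -⟩ := hN _ (q g).2.2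
    show tr _ * N _ ∈ _
    rw [hNb]
    exact mul_mem (mem_fOver_tr _) (mem_fOver_blk _ _)
  have hΓH : Γ ≤ H := sup_le hPH ((closure_le _).2 (by rintro x (rfl | rfl) <;> assumption))
  let fH : Γ →* ↥(Cfsg.fOver (ZMod p)) := f.codRestrict _ hf
  have hsurj : Cfsg.fOver (ZMod p) ≤ f.range := by
    refine (closure_le _).2 ?_
    rintro M ⟨h10, h20, h21, h22⟩
    have hdet := M.2
    rw [Matrix.det_fin_three, h10, h20, h21, h22] at hdet
    simp at hdet
    set a : (ZMod p)ˣ := Units.mkOfMulEqOne _ _ hdet with ha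
    have hMeq : M = tr ![(M : Matrix (Fin 3) (Fin 3) (ZMod p)) 0 2,
        (M : Matrix (Fin 3) (Fin 3) (ZMod p)) 1 2] *
          blk a ((M : Matrix (Fin 3) (Fin 3) (ZMod p)) 0 1) := by
      have hainv : ((a⁻¹ : (ZMod p)ˣ) : ZMod p) = (M : Matrix (Fin 3) (Fin 3) (ZMod p)) 1 1 := rfl
      ext i j
      fin_cases i <;> fin_cases j <;>
        simp [Matrix.SpecialLinearGroup.coe_mul, Matrix.mul_apply, Fin.sum_univ_three,
          h10, h20, h21, h22, hainv, -Units.val_inv_eq_inv_val] <;> rfl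
    have htr : ∀ v, tr v ∈ f.range := by
      intro v
      obtain ⟨w, hw⟩ := hΦ (Multiplicative.ofAdd v)
      refine ⟨⟨w, mem_sup_left w.2⟩, ?_⟩
      show val (q _) = _
      rw [hval _ (w, 1) (by rw [hq]; simp)]
      have : N ((1 : B) : G) = 1 := huniq _ _ _ (hN _ (one_mem _)) (by simpa using hzact 1)
      show tr _ * N _ = _
      rw [this, mul_one, hw]
      rfl
    have hblk : ∀ b ∈ B, N b ∈ f.range := by
      intro b hb
      refine ⟨⟨b, mem_sup_right hb⟩, ?_⟩
      show val (q _) = _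
      rw [hval _ (1, ⟨b, hb⟩) (by rw [hq]; simp)]
      have h0 : tr (0 : Fin 2 → ZMod p) = 1 := by
        ext i j
        fin_cases i <;> fin_cases j <;> simp
      show tr _ * N b = _
      rw [map_one, toAdd_one, h0, one_mul]
    have hkB : k ∈ B := subset_closure (Or.inl rfl)
    have hdB : d ∈ B := subset_closure (Or.inr rfl)
    have hNk : blk c r ∈ f.range := by
      rw [← huniq _ _ _ (hN k hkB) ⟨hkP, c, r, rfl, hkΦ⟩]
      exact hblk k hkB
    have hNd : blk 1 1 ∈ f.range := by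
      rw [← huniq _ _ _ (hN d hdB) ⟨hdP, 1, 1, rfl, fun w w' hw => by simpa using hdΦ w w' hw⟩]
      exact hblk d hdB
    have hu : ∀ n : ℕ, blk (1 : (ZMod p)ˣ) (n : ZMod p) ∈ f.range := by
      intro n
      induction n with
      | zero => rw [Nat.cast_zero, blk_one_zero]; exact one_mem _
      | succ n ih =>
        have := mul_mem ih hNd
        rw [blk_mul] at this
        simpa [add_comm] using this
    have hgen : a ∈ zpowers c := by
      have : zpowers c = ⊤ := eq_top_of_card_eq _ (by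
        rw [Nat.card_zpowers, hc, Nat.card_eq_fintype_card, ZMod.card_units])
      rw [this]
      exact mem_top _
    obtain ⟨i, hi⟩ := (Submonoid.mem_powers_iff a c).1 (mem_powers_iff_mem_zpowers.2 hgen)
    obtain ⟨r', hr'⟩ : ∃ r', blk c r ^ i = blk (c ^ i) r' := by
      clear hi
      induction i with
      | zero => exact ⟨0, by rw [pow_zero, pow_zero, blk_one_zero]⟩
      | succ i ih =>
        obtain ⟨r', hr'⟩ := ih
        exact ⟨_, by rw [pow_succ, hr', blk_mul, ← pow_succ]⟩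
    rw [SetLike.mem_coe, hMeq]
    refine mul_mem (htr _) ?_
    have h' : blk a r' ∈ f.range := by
      rw [← hi, ← hr']
      exact pow_mem hNk i
    have := mul_mem h' (hu ((((a⁻¹ : (ZMod p)ˣ) : ZMod p) *
      ((M : Matrix (Fin 3) (Fin 3) (ZMod p)) 0 1 - r')).val))
    rw [blk_mul, ZMod.natCast_zmod_val] at this
    convert this using 2
    · simp
    · rw [← mul_assoc, a.mul_inv, one_mul, inv_one, Units.val_one, mul_one, sub_add_cancel]
  refine EvenLocal.involves_of_surjective (A := Γ.subgroupOf H)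
    (fH.comp (subgroupOfEquivOfLe hΓH).toMonoidHom) ?_
  rintro ⟨M, hM⟩
  obtain ⟨g, hg⟩ := hsurj hM
  refine ⟨(subgroupOfEquivOfLe hΓH).symm g, Subtype.ext ?_⟩
  simpa [fH] using hg

end Cfsg.Agent.ZJFail
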