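import Mathlib.Algebra.Module.ZMod
import Mathlib.LinearAlgebra.Matrix.ToLin
import Mathlib.RingTheory.IntegralDomain
import Mathlib.RingTheory.Adjoin.Basic
import Mathlib.GroupTheory.SpecificGroups.Cyclic
import Cfsg.Agent.PSLTwoSub.DicksonGen

/-!
Two elements acting quadratically on a module over `ZMod p`: either they generate a group acting
unipotently, or an irreducible section carries `SL₂` and so a split torus element.
-/

set_option autoImplicit false
set_option linter.unusedSectionVars false
set_option linter.style.haveILetI false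
set_option maxHeartbeats 1000000

namespace Cfsg.Agent.ZJFail

open Matrix
open scoped MatrixGroups

variable {p : ℕ} [hp : Fact p.Prime] {V : Type*} [AddCommGroup V] [Module (ZMod p) V]

/-- The submodules fixed step by step by two endomorphisms. -/
def fixChain (a b : Module.End (ZMod p) V) : ℕ → Submodule (ZMod p) V
  | 0 => ⊥
  | n + 1 => (fixChain a b n).comap a ⊓ (fixChain a b n).comap b

theorem fixChain_mono (a b : Module.End (ZMod p) V) :
    ∀ n, fixChain a b n ≤ fixChain a b (n + 1)
  | 0 => bot_le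
  | n + 1 => by
    intro v hv
    exact ⟨fixChain_mono a b n hv.1, fixChain_mono a b n hv.2⟩

/-- The Casimir element of the pair. -/
def theta (a b : Module.End (ZMod p) V) : Module.End (ZMod p) V := a * b + b * a

theorem commute_theta_left {a b : Module.End (ZMod p) V} (ha : a * a = 0) :
    Commute a (theta a b) := by
  show a * (a * b + b * a) = (a * b + b * a) * a
  rw [mul_add, add_mul, ← mul_assoc, ha, zero_mul, zero_add, ← mul_assoc, mul_assoc b a a, ha,
    mul_zero, add_zero]

theorem commute_theta_right {a b : Module.End (ZMod p) V} (hb : b * b = 0) :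
    Commute b (theta a b) := by
  show b * (a * b + b * a) = (a * b + b * a) * b
  rw [mul_add, add_mul, ← mul_assoc b b a, hb, zero_mul, add_zero, mul_assoc a b b, hb, mul_zero,
    zero_add, ← mul_assoc]

theorem exists_mem_fixChain_succ {a b : Module.End (ZMod p) V} (ha : a * a = 0) (hb : b * b = 0)
    {k : ℕ} (hk : theta a b ^ k = 0) {n : ℕ} (hn : fixChain a b n ≠ ⊤) :
    ∃ v, v ∈ fixChain a b (n + 1) ∧ v ∉ fixChain a b n := by
  have hinva : ∀ v ∈ fixChain a b n, a v ∈ fixChain a b n :=
    fun v hv => (fixChain_mono a b n hv).1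
  have hinvb : ∀ v ∈ fixChain a b n, b v ∈ fixChain a b n :=
    fun v hv => (fixChain_mono a b n hv).2
  obtain ⟨v₀, hv₀⟩ : ∃ v, v ∉ fixChain a b n := by
    by_contra h
    push Not at h
    exact hn (eq_top_iff.2 fun v _ => h v)
  obtain ⟨v, hv, hθv⟩ : ∃ v, v ∉ fixChain a b n ∧ theta a b v ∈ fixChain a b n := by
    by_contra h
    push Not at h
    have : ∀ j : ℕ, (theta a b ^ j) v₀ ∉ fixChain a b n := by
      intro j
      induction j with
      | zero => simpa using hv₀
      | succ j ih => rw [pow_succ', Module.End.mul_apply]; exact h _ ih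
    apply this k
    rw [hk]
    exact zero_mem _
  have key : ∀ w, w ∉ fixChain a b n → a w ∈ fixChain a b n → theta a b w ∈ fixChain a b n →
      ∃ v, v ∈ fixChain a b (n + 1) ∧ v ∉ fixChain a b n := by
    intro w hw haw hθw
    by_cases hbw : b w ∈ fixChain a b n
    · exact ⟨w, ⟨haw, hbw⟩, hw⟩
    · refine ⟨b w, ⟨?_, ?_⟩, hbw⟩
      · have h1 : a (b w) = theta a b w - b (a w) := by simp [theta]
        show a (b w) ∈ fixChain a b n
        rw [h1]
        exact sub_mem hθw (hinvb _ haw)
      · show b (b w) ∈ fixChain a b n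
        rw [← Module.End.mul_apply, hb]
        exact zero_mem _
  by_cases hav : a v ∈ fixChain a b n
  · exact key v hv hav hθv
  · refine key (a v) hav ?_ ?_
    · rw [← Module.End.mul_apply, ha]
      exact zero_mem _
    · rw [← Module.End.mul_apply, ← (commute_theta_left ha).eq, Module.End.mul_apply]
      exact hinva _ hθv

/-- If the Casimir element of a quadratic pair is nilpotent, the pair acts unipotently. -/
theorem pow_eq_one_of_theta_nilpotent [Finite V] {M : Type*} [Group M] [Finite M]
    (ρ : M →* Module.End (ZMod p) V) {x y : M}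
    (hx : (ρ x - 1) * (ρ x - 1) = 0) (hy : (ρ y - 1) * (ρ y - 1) = 0)
    {k : ℕ} (hk : theta (ρ x - 1) (ρ y - 1) ^ k = 0) :
    ∃ N : ℕ, ∀ m ∈ Subgroup.closure ({x, y} : Set M), ρ m ^ p ^ N = 1 := by
  set a := ρ x - 1 with ha
  set b := ρ y - 1 with hb
  haveI : Finite (Submodule (ZMod p) V) := Finite.of_injective _ SetLike.coe_injective
  obtain ⟨n, hn⟩ : ∃ n, fixChain a b n = ⊤ := by
    by_contra h
    push Not at h
    have hlt : ∀ n, fixChain a b n < fixChain a b (n + 1) := by
      intro n
      obtain ⟨v, hv, hv'⟩ := exists_mem_fixChain_succ hx hy hk (h n)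
      exact lt_of_le_of_ne (fixChain_mono a b n) fun he => hv' (he ▸ hv)
    exact not_injective_infinite_finite _ (strictMono_nat_of_lt_succ hlt).injective
  have hstep : ∀ m ∈ Subgroup.closure ({x, y} : Set M), ∀ j, ∀ v ∈ fixChain a b (j + 1),
      ρ m v - v ∈ fixChain a b j := by
    intro m hm
    rw [← Subgroup.mem_toSubmonoid, Subgroup.closure_toSubmonoid_of_finite] at hm
    induction hm using Submonoid.closure_induction with
    | mem z hz =>
      intro j v hv
      rcases hz with rfl | rfl
      · simpa [ha, LinearMap.sub_apply] using hv.1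
      · simpa [hb, LinearMap.sub_apply] using hv.2
    | one => intro j v _; simp
    | mul g h _ _ hg hh =>
      intro j v hv
      have hpres : ∀ w ∈ fixChain a b j, ρ g w ∈ fixChain a b j := by
        intro w hw
        have := add_mem (hg j w (fixChain_mono a b j hw)) hw
        simpa using this
      have e : ρ (g * h) v - v = ρ g (ρ h v - v) + (ρ g v - v) := by
        rw [map_mul, Module.End.mul_apply, map_sub]
        abel
      rw [e]
      exact add_mem (hpres _ (hh j v hv)) (hg j v hv)
  have hnil : ∀ m ∈ Subgroup.closure ({x, y} : Set M), (ρ m - 1) ^ n = 0 := by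
    intro m hm
    have h1 : ∀ (i : ℕ) (v : V), v ∈ fixChain a b i → ((ρ m - 1) ^ i) v = 0 := by
      intro i
      induction i with
      | zero =>
        intro v hv
        simpa using (Submodule.mem_bot (ZMod p)).1 hv
      | succ i ih =>
        intro v hv
        rw [pow_succ, Module.End.mul_apply]
        exact ih _ (by simpa [LinearMap.sub_apply] using hstep m hm i v hv)
    exact LinearMap.ext fun v => by simpa using h1 n v (hn ▸ Submodule.mem_top)
  refine ⟨n, fun m hm => ?_⟩
  rcases subsingleton_or_nontrivial V with hV | hV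
  · exact LinearMap.ext fun v => Subsingleton.elim _ _
  haveI : Nontrivial (Module.End (ZMod p) V) := Module.End.instNontrivial
  haveI : CharP (Module.End (ZMod p) V) p := charP_of_injective_ringHom
    (algebraMap (ZMod p) (Module.End (ZMod p) V)).injective p
  have h2 := sub_pow_char_pow_of_commute (p := p) (n := n) (Commute.one_right (ρ m))
  rw [one_pow] at h2
  have h3 : (ρ m - 1) ^ p ^ n = 0 := by
    have hle : n ≤ p ^ n := (Nat.lt_pow_self hp.out.one_lt).le
    rw [← Nat.sub_add_cancel hle, pow_add, hnil m hm, mul_zero]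
  rw [h3] at h2
  exact sub_eq_zero.1 h2.symm

/-- A generator of the multiplicative group modulo `p`, as a number. -/
theorem exists_primitive : ∃ c : (ZMod p)ˣ, orderOf c = p - 1 := by
  obtain ⟨c, hc⟩ := IsCyclic.exists_generator (α := (ZMod p)ˣ)
  exact ⟨c, by rw [orderOf_eq_card_of_forall_mem_zpowers hc, Nat.card_eq_fintype_card,
    ZMod.card_units]⟩

theorem eq_neg_one_of_units_zmod_three : ∀ u : (ZMod 3)ˣ, u ≠ 1 → (u : ZMod 3) = -1 := by decide

/-- An irreducible quadratic pair with nonzero Casimir element: there are vectors `e₁, e₂` with `a e₁ = 0`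
and `a e₂ = e₁`, and a group element acting as a primitive scalar on `ker a` and inversely on `e₂`. -/
theorem exists_torus [Finite V] [Nontrivial V] (hp2 : p ≠ 2) {M : Type*} [Group M]
    (ρ : M →* Module.End (ZMod p) V) {x y : M}
    (hx : (ρ x - 1) * (ρ x - 1) = 0) (hy : (ρ y - 1) * (ρ y - 1) = 0)
    (hθ : theta (ρ x - 1) (ρ y - 1) ≠ 0)
    (hirr : ∀ U : Submodule (ZMod p) V, (∀ v ∈ U, (ρ x - 1) v ∈ U) →
      (∀ v ∈ U, (ρ y - 1) v ∈ U) → U = ⊥ ∨ U = ⊤) :
    ∃ (e₁ e₂ : V) (m : M) (c : (ZMod p)ˣ), orderOf c = p - 1 ∧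
      m ∈ Subgroup.closure ({x, y} : Set M) ∧
      (ρ x - 1) e₁ = 0 ∧ (ρ x - 1) e₂ = e₁ ∧ e₁ ≠ 0 ∧
      (∀ v, (ρ x - 1) v = 0 → ρ m v = (c : ZMod p) • v) ∧
      ρ m e₂ = ((c⁻¹ : (ZMod p)ˣ) : ZMod p) • e₂ := by
  classical
  set a := ρ x - 1 with ha
  set b := ρ y - 1 with hb
  set θ := theta a b with hθdef
  let F := Algebra.adjoin (ZMod p) ({θ} : Set (Module.End (ZMod p) V))
  have hmem : ∀ f : F, Commute a (f : Module.End (ZMod p) V) ∧
      Commute b (f : Module.End (ZMod p) V) := by
    intro f
    obtain ⟨f, hf⟩ := f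
    induction hf using Algebra.adjoin_induction with
    | mem g hg =>
      rw [Set.mem_singleton_iff] at hg
      show Commute a g ∧ Commute b g
      rw [hg]
      exact ⟨commute_theta_left hx, commute_theta_right hy⟩
    | algebraMap r => exact ⟨Algebra.commute_algebraMap_right r a, Algebra.commute_algebraMap_right r b⟩
    | add g h _ _ hg hh => exact ⟨hg.1.add_right hh.1, hg.2.add_right hh.2⟩
    | mul g h _ _ hg hh => exact ⟨hg.1.mul_right hh.1, hg.2.mul_right hh.2⟩
  have hinj : ∀ f : F, f ≠ 0 → ∀ v, (f : Module.End (ZMod p) V) v = 0 → v = 0 := by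
    intro f hf v hv
    have hcm : ∀ (g : Module.End (ZMod p) V), Commute g (f : Module.End (ZMod p) V) →
        ∀ w ∈ LinearMap.ker (f : Module.End (ZMod p) V),
          g w ∈ LinearMap.ker (f : Module.End (ZMod p) V) := by
      intro g hg w hw
      rw [LinearMap.mem_ker] at hw ⊢
      rw [← Module.End.mul_apply, ← hg.eq, Module.End.mul_apply, hw, map_zero]
    rcases hirr _ (hcm a (hmem f).1) (hcm b (hmem f).2) with h | h
    · exact (Submodule.mem_bot (ZMod p)).1 (h ▸ LinearMap.mem_ker.2 hv)
    · exact absurd (Subtype.ext (LinearMap.ker_eq_top.1 h) : f = 0) hf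
  haveI : IsMulCommutative F := Algebra.isMulCommutative_adjoin (ZMod p) (by
    rintro f hf g hg
    rw [Set.mem_singleton_iff] at hf hg
    rw [hf, hg])
  open scoped IsMulCommutative in
  letI cr : CommRing F := inferInstance
  haveI : Nontrivial F := by
    refine ⟨⟨0, 1, fun h => ?_⟩⟩
    exact zero_ne_one (α := Module.End (ZMod p) V) (congrArg Subtype.val h)
  haveI : NoZeroDivisors F := ⟨fun {f g} h => by
    by_contra hne
    push Not at hne
    obtain ⟨v, hv⟩ : ∃ v, (g : Module.End (ZMod p) V) v ≠ 0 := by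
      by_contra hall
      push Not at hall
      exact hne.2 (Subtype.ext (LinearMap.ext hall))
    refine hv (hinj f hne.1 _ ?_)
    rw [← Module.End.mul_apply]
    exact LinearMap.congr_fun (congrArg Subtype.val h) v⟩
  haveI : IsDomain F := NoZeroDivisors.to_isDomain _
  haveI : Finite F := Finite.of_injective
    (fun f : F => ((f : Module.End (ZMod p) V) : V → V))
    (fun f g h => Subtype.ext (DFunLike.coe_injective h))
  letI : Fintype F := Fintype.ofFinite _
  letI : Field F := Fintype.fieldOfDomain F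
  haveI : CharP F p := charP_of_injective_ringHom (algebraMap (ZMod p) F).injective p
  let lam : F := ⟨θ, Algebra.self_mem_adjoin_singleton _ _⟩
  have hlam : lam ≠ 0 := fun h => hθ (congrArg Subtype.val h)
  have hgen : Subfield.closure ({lam} : Set F) = ⊤ := by
    rw [eq_top_iff]
    rintro ⟨f, hf⟩ -
    induction hf using Algebra.adjoin_induction with
    | mem g hg =>
      rw [Set.mem_singleton_iff] at hg
      subst hg
      exact Subfield.subset_closure rfl
    | algebraMap r =>
      have e : (⟨algebraMap (ZMod p) (Module.End (ZMod p) V) r, Subalgebra.algebraMap_mem _ r⟩ : F)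
          = ((r.val : ℕ) : F) := by
        rw [← map_natCast (algebraMap (ZMod p) F), ZMod.natCast_zmod_val]
        rfl
      rw [e]
      exact natCast_mem _ _
    | add g h hg' hh' hg hh => exact add_mem (hg) (hh)
    | mul g h hg' hh' hg hh => exact mul_mem (hg) (hh)
  have hca : ∀ (f : F) v, a ((f : Module.End (ZMod p) V) v) =
      (f : Module.End (ZMod p) V) (a v) := fun f v => LinearMap.congr_fun (hmem f).1.eq v
  have hcb : ∀ (f : F) v, b ((f : Module.End (ZMod p) V) v) =
      (f : Module.End (ZMod p) V) (b v) := fun f v => LinearMap.congr_fun (hmem f).2.eq v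
  have haa : ∀ v, a (a v) = 0 := fun v => by rw [← Module.End.mul_apply, hx]; rfl
  have hbb : ∀ v, b (b v) = 0 := fun v => by rw [← Module.End.mul_apply, hy]; rfl
  obtain ⟨u, hu0, hau⟩ : ∃ u, u ≠ 0 ∧ a u = 0 := by
    obtain ⟨v, hv⟩ := exists_ne (0 : V)
    by_cases h : a v = 0
    · exact ⟨v, hv, h⟩
    · exact ⟨a v, h, haa v⟩
  have habu : a (b u) = θ u := by simp [θ, theta, hau]
  have hθu : θ u ≠ 0 := fun h => hu0 (hinj lam hlam u h)
  let ψ : (Fin 2 → F) →ₗ[ZMod p] V :=
    { toFun := fun f => (f 0 : Module.End (ZMod p) V) u + (f 1 : Module.End (ZMod p) V) (b u)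
      map_add' := fun f g => by
        simp only [Pi.add_apply, Subalgebra.coe_add, LinearMap.add_apply]
        abel
      map_smul' := fun r f => by simp [smul_add] }
  have hψ : ∀ f : Fin 2 → F,
      ψ f = (f 0 : Module.End (ZMod p) V) u + (f 1 : Module.End (ZMod p) V) (b u) := fun _ => rfl
  have haψ : ∀ f, a (ψ f) = (f 1 : Module.End (ZMod p) V) (θ u) := fun f => by
    rw [hψ, map_add, hca, hca, hau, map_zero, zero_add, habu]
  have hbψ : ∀ f, b (ψ f) = (f 0 : Module.End (ZMod p) V) (b u) := fun f => by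
    rw [hψ, map_add, hcb, hcb, hbb, map_zero, add_zero]
  have hψinj : Function.Injective ψ := by
    refine (injective_iff_map_eq_zero ψ).2 fun f hf => ?_
    have h1 : f 1 = 0 := by
      by_contra h
      exact hθu (hinj (f 1) h _ (by rw [← haψ, hf, map_zero]))
    have h0 : f 0 = 0 := by
      by_contra h
      refine hu0 (hinj (f 0) h _ ?_)
      have := hf
      rw [hψ, h1] at this
      simpa using this
    ext i
    fin_cases i
    · exact congrArg Subtype.val h0 ▸ rfl
    · exact congrArg Subtype.val h1 ▸ rfl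
  have hrange : LinearMap.range ψ = ⊤ := by
    refine (hirr (LinearMap.range ψ) ?_ ?_).resolve_left ?_
    · rintro - ⟨f, rfl⟩
      refine ⟨![f 1 * lam, 0], ?_⟩
      rw [haψ, hψ]
      simp [lam, Module.End.mul_apply]
    · rintro - ⟨f, rfl⟩
      refine ⟨![0, f 0], ?_⟩
      rw [hbψ, hψ]
      simp
    · intro h
      have : u ∈ LinearMap.range ψ := ⟨![1, 0], by rw [hψ]; simp⟩
      rw [h] at this
      exact hu0 ((Submodule.mem_bot (ZMod p)).1 this)
  let e : (Fin 2 → F) ≃ₗ[ZMod p] V :=
    LinearEquiv.ofBijective ψ ⟨hψinj, LinearMap.range_eq_top.1 hrange⟩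
  let φ : SL(2, F) →* Module.End (ZMod p) V :=
    { toFun := fun g => (e.toLinearMap.comp
        ((Matrix.mulVecLin (g : Matrix (Fin 2) (Fin 2) F)).restrictScalars (ZMod p))).comp
          e.symm.toLinearMap
      map_one' := by
        refine LinearMap.ext fun v => ?_
        simp
      map_mul' := fun g h => by
        refine LinearMap.ext fun v => ?_
        simp }
  have hφ : ∀ g f, φ g (ψ f) = ψ ((g : Matrix (Fin 2) (Fin 2) F).mulVec f) := by
    intro g f
    show e _ = _
    have : e.symm (ψ f) = f := e.symm_apply_apply f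
    simp [this]
    rfl
  set S : Set SL(2, F) := {g | (g : Matrix (Fin 2) (Fin 2) F) = !![1, 0; 1, 1] ∨
    (g : Matrix (Fin 2) (Fin 2) F) = !![1, lam; 0, 1]}
  have hlift : ∀ g ∈ Subgroup.closure S, ∃ m ∈ Subgroup.closure ({x, y} : Set M), ρ m = φ g := by
    intro g hg
    induction hg using Subgroup.closure_induction with
    | mem g hg =>
      rcases hg with hg | hg
      · refine ⟨y, Subgroup.subset_closure (by simp), LinearMap.ext fun v => ?_⟩
        obtain ⟨f, rfl⟩ := e.surjective v
        show ρ y (ψ f) = φ g (ψ f)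
        have h1 : ρ y (ψ f) = ψ f + b (ψ f) := by simp [hb, LinearMap.sub_apply]
        rw [hφ, hg, h1, hbψ, hψ, hψ]
        simp [Matrix.mulVec, dotProduct, Fin.sum_univ_two, add_comm, add_assoc, add_left_comm]
      · refine ⟨x, Subgroup.subset_closure (by simp), LinearMap.ext fun v => ?_⟩
        obtain ⟨f, rfl⟩ := e.surjective v
        show ρ x (ψ f) = φ g (ψ f)
        have h1 : ρ x (ψ f) = ψ f + a (ψ f) := by simp [ha, LinearMap.sub_apply]
        have h2 : (f 1 : Module.End (ZMod p) V) (θ u) =
            ((lam * f 1 : F) : Module.End (ZMod p) V) u := by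
          rw [mul_comm lam, Subalgebra.coe_mul, Module.End.mul_apply]
        rw [hφ, hg, h1, haψ, h2, hψ, hψ]
        simp [Matrix.mulVec, dotProduct, Fin.sum_univ_two, add_comm, add_assoc, add_left_comm]
    | one => exact ⟨1, one_mem _, by rw [map_one, map_one]⟩
    | mul g h _ _ hg hh =>
      obtain ⟨m, hm, hm'⟩ := hg
      obtain ⟨n, hn, hn'⟩ := hh
      exact ⟨m * n, mul_mem hm hn, by rw [map_mul, map_mul, hm', hn']⟩
    | inv g _ hg =>
      obtain ⟨m, hm, hm'⟩ := hg
      refine ⟨m⁻¹, inv_mem hm, ?_⟩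
      calc ρ m⁻¹ = ρ m⁻¹ * (φ g * φ g⁻¹) := by rw [← map_mul, mul_inv_cancel, map_one, mul_one]
        _ = (ρ m⁻¹ * ρ m) * φ g⁻¹ := by rw [hm', mul_assoc]
        _ = φ g⁻¹ := by rw [← map_mul, inv_mul_cancel, map_one, one_mul]
  obtain ⟨c, hc⟩ := exists_primitive (p := p)
  have h2 : (2 : F) ≠ 0 := by
    intro h
    rw [← Nat.cast_ofNat, CharP.cast_eq_zero_iff F p] at h
    exact hp2 ((Nat.prime_dvd_prime_iff_eq hp.out Nat.prime_two).1 h)
  set cF : Fˣ := Units.map (algebraMap (ZMod p) F).toMonoidHom c with hcF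
  let T : SL(2, F) := PSLTwoSub.mk22 (cF : F) 0 0 ((cF⁻¹ : Fˣ) : F) (by simp)
  have hT : T ∈ Subgroup.closure S := by
    by_cases hex : Fintype.card F = 9 ∧ lam ^ 2 = -1
    · obtain ⟨h9, hl⟩ := hex
      have hp3 : p = 3 := by
        have h0 : ((3 ^ 2 : ℕ) : F) = 0 := by
          rw [show (3 ^ 2 : ℕ) = Fintype.card F by rw [h9]; norm_num]
          exact Nat.cast_card_eq_zero F
        exact (Nat.prime_dvd_prime_iff_eq hp.out Nat.prime_three).1
          (hp.out.dvd_of_dvd_pow ((CharP.cast_eq_zero_iff F p _).1 h0))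
      subst hp3
      haveI : Fact (Nat.Prime 2) := ⟨Nat.prime_two⟩
      obtain ⟨g, hg⟩ := exists_prime_orderOf_dvd_card' (G := Subgroup.closure S) 2
        (by rw [PSLTwoSub.Nine.card_closure hl]; norm_num)
      have hg2 : (g : SL(2, F)) ^ 2 = 1 := by
        have := pow_orderOf_eq_one g
        rw [hg] at this
        simpa using congrArg Subtype.val this
      have hgne : (g : SL(2, F)) ≠ 1 := by
        intro h
        have : g = 1 := Subtype.ext h
        rw [this, orderOf_one] at hg
        norm_num at hg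
      have hg1 := (PSLTwoSub.eq_one_or_neg_of_sq h2 hg2).resolve_left hgne
      have hc2 : (c : ZMod 3) = -1 := by
        have h1 : c ≠ 1 := fun h => by rw [h, orderOf_one] at hc; norm_num at hc
        exact eq_neg_one_of_units_zmod_three c h1
      have hcm : (cF : F) = -1 := by
        show algebraMap (ZMod 3) F (c : ZMod 3) = -1
        rw [hc2, map_neg, map_one]
      have : T = -1 := by
        apply Subtype.ext
        ext i j
        fin_cases i <;> fin_cases j <;> simp [T, hcm]
      rw [this, ← hg1]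
      exact g.2
    · rw [PSLTwoSub.closure_eq_top h2 hlam hgen hex]
      exact Subgroup.mem_top _
  obtain ⟨m, hm, hmT⟩ := hlift T hT
  refine ⟨θ u, b u, m, c, hc, hm, ?_, habu, hθu, ?_, ?_⟩
  · show a (θ u) = 0
    rw [hca lam, hau, map_zero]
  · intro v hv
    obtain ⟨f, rfl⟩ := e.surjective v
    change a (ψ f) = 0 at hv
    show ρ m (ψ f) = (c : ZMod p) • ψ f
    have h1 : f 1 = 0 := by
      by_contra h
      exact hθu (hinj (f 1) h _ (by rw [← haψ, hv]))
    rw [hmT, hφ, ← map_smul]
    congr 1
    ext i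
    fin_cases i <;> simp [T, h1, Matrix.mulVec, dotProduct, Fin.sum_univ_two, hcF, Algebra.smul_def]
  · have hbu : b u = ψ ![0, 1] := by rw [hψ]; simp
    rw [hmT, hbu, hφ, ← map_smul]
    congr 1
    funext i
    fin_cases i <;> simp [T, Matrix.mulVec, dotProduct, Fin.sum_univ_two, hcF, Algebra.smul_def, -Units.val_inv_eq_inv_val]

end Cfsg.Agent.ZJFail
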