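import Cfsg.Agent.ZJFail.Setup

/-!
Pushing up inside the normalizer of a subgroup `B` with abelian image modulo the core of `Z(J(S))`.
-/

set_option autoImplicit false
set_option linter.style.haveILetI false
set_option linter.unusedSectionVars false

namespace Cfsg.Agent.ZJFail

open Subgroup Cfsg.Agent.Fusion
open scoped commutatorElement

variable {G : Type*} [Group G] [Finite G] {p : ℕ} [hp : Fact p.Prime]

/-- In a `p`-group some element of a conjugation closed set outside the subgroup generated by part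
of it normalizes that subgroup. -/
theorem exists_mem_normalizer {P X : Subgroup G} {s : Set G} (hP : IsPGroup p P) (hXP : X ≤ P)
    (hsP : s ⊆ (P : Set G)) (hinv : ∀ y ∈ P, ∀ z ∈ s, y * z * y⁻¹ ∈ s)
    (hX : closure (s ∩ (X : Set G)) = X) (hs : ¬ s ⊆ (X : Set G)) :
    ∃ σ ∈ s, σ ∉ X ∧ σ ∈ normalizer (X : Set G) := by
  by_contra h
  push Not at h
  set N := P ⊓ normalizer (X : Set G) with hN
  have key : P ⊓ normalizer (N : Set G) ≤ N := by
    rintro y ⟨hyP, hyN⟩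
    refine ⟨hyP, mem_normalizer_of_forall fun z hz => ?_⟩
    rw [← hX] at hz
    induction hz using closure_induction with
    | mem z hz =>
      by_contra hzX
      exact h _ (hinv y hyP z hz.1) hzX
        (mem_normalizer_conj hyN (⟨hXP hz.2, le_normalizer hz.2⟩ : z ∈ N)).2
    | one => simp
    | mul a b _ _ ha hb => simpa [mul_assoc] using mul_mem ha hb
    | inv a _ ha => simpa [mul_assoc] using inv_mem ha
  have hNP : N = P := by
    refine le_antisymm inf_le_left ?_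
    by_contra hlt
    exact absurd key (not_le_of_gt (lt_normalizer_inf hP
      (lt_of_le_of_ne inf_le_left fun he => hlt he.ge)))
  exact hs fun z hz => by
    by_contra hzX
    exact h z hz hzX (hNP.ge (hsP hz)).2

variable (S : Sylow p G)

/-- `g` acts quadratically on `B` modulo `Zi`. -/
def Quad (B Zi : Subgroup G) (g : G) : Prop := ∀ b ∈ B, ⁅g, ⁅g, b⁆⁆ ∈ Zi

theorem quad_conj {B Zi : Subgroup G} [Zi.Normal] {g : G} (hg : g ∈ normalizer (B : Set G)) {x : G}
    (hx : Quad B Zi x) : Quad B Zi (g * x * g⁻¹) := by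
  intro b hb
  have hb' : g⁻¹ * b * g ∈ B := by simpa using mem_normalizer_conj (inv_mem hg) hb
  have e : ⁅g * x * g⁻¹, ⁅g * x * g⁻¹, b⁆⁆ = g * ⁅x, ⁅x, g⁻¹ * b * g⁆⁆ * g⁻¹ := by
    simp [commutatorElement_def, mul_assoc]
  rw [e]
  exact Subgroup.Normal.conj_mem inferInstance _ (hx _ hb') g

/-- The pushing-up lemma. -/
theorem push (hp2 : p ≠ 2) (hyp : Hyp S) {Zi Zt B : Subgroup G} [Zi.Normal] (hZiZ : Zi ≤ zj S)
    (hZiZt : Zi ≤ Zt) (hZtZ : Zt ≤ zj S) (hSZt : (S : Subgroup G) ≤ normalizer (Zt : Set G))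
    (hKt : normalizer (Zt : Set G) ≠ ⊤)
    (hZtp : ∀ z ∈ Zt, z ^ p ∈ Zi)
    (hcent : ∀ T : Subgroup G, IsPGroup p T → T ≤ normalizer (Zt : Set G) →
      ∀ t ∈ T, ∀ z ∈ Zt, ⁅t, z⁆ ∈ Zi)
    (hZtB : Zt ≤ B) (hBS : B ≤ (S : Subgroup G))
    (hBab : ∀ a ∈ B, ∀ b ∈ B, ⁅a, b⁆ ∈ Zi)
    (hRB : ¬ p ∣ ((S : Subgroup G) ⊓ normalizer (B : Set G)).relIndex (normalizer (B : Set G)))
    (hex : ∃ D : Subgroup G, B ≤ D ∧ D ≤ (S : Subgroup G) ⊓ normalizer (B : Set G) ∧
      ∃ g ∈ normalizer (B : Set G), cj g D ≤ (S : Subgroup G) ∧ ¬ Realised (nz S) D g)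
    (hSig : ∀ (D : Subgroup G) (l : G), B ≤ D → D ≤ (S : Subgroup G) ⊓ normalizer (B : Set G) →
      l ∈ normalizer (B : Set G) → l ∈ normalizer (D : Set G) → ¬ Realised (nz S) D l →
      (∀ σ ∈ (S : Subgroup G) ⊓ normalizer (B : Set G), Quad B Zi σ → σ ∈ D) → False) :
    Concl p (nz S) (zj S) := by
  classical
  set LB := normalizer (B : Set G) with hLB
  set RB := (S : Subgroup G) ⊓ LB with hRBdef
  have hRBp : IsPGroup p RB := S.2.to_le inf_le_left
  set H := nz S with hH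
  let fam : Set (Subgroup G) := {D | B ≤ D ∧ D ≤ RB ∧
    ∃ g ∈ LB, cj g D ≤ (S : Subgroup G) ∧ ¬ Realised H D g}
  let sc : Subgroup G → ℕ := fun D => Set.ncard {g : G | g ∈ D ∧ Quad B Zi g}
  have hscc : ∀ g ∈ LB, ∀ D : Subgroup G, sc D ≤ sc (cj g D) := fun g hg D =>
    Set.ncard_le_ncard_of_injOn (fun x => g * x * g⁻¹)
      (fun x hx => ⟨conj_mem_cj.2 hx.1, quad_conj hg hx.2⟩)
      (fun x _ y _ h => mul_left_cancel (mul_right_cancel h))
      (Set.toFinite _)
  have hscm : ∀ D D' : Subgroup G, D ≤ D' → sc D ≤ sc D' := fun D D' h =>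
    Set.ncard_le_ncard (fun x hx => ⟨h hx.1, hx.2⟩) (Set.toFinite _)
  obtain ⟨D0, hD0, hD0max⟩ := Set.exists_max_image fam sc (Set.toFinite _) hex
  obtain ⟨D1, ⟨hD1, hD1s⟩, hD1max⟩ := Set.exists_max_image
    {D | D ∈ fam ∧ sc D0 ≤ sc D} (fun D => Nat.card D) (Set.toFinite _) ⟨D0, hD0, le_rfl⟩
  obtain ⟨hBD1, hD1RB, g1, hg1, hg1S, hn1⟩ := hD1
  -- a local witness
  obtain ⟨T2, hT2RB, hT2i, ⟨l2, hl2B, hl2T, hn2⟩, m, hm, hmT⟩ := exists_unrealised_in
    (M := LB) (P := RB) inf_le_right hRBp hRB (Realised H)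
    (fun D _ => Realised.of_mem (one_mem _)) (fun D D' g h => Realised.mono h)
    (fun D a b => Realised.comp) hg1 hD1RB
    (le_inf hg1S ((cj_mono g1 (hD1RB.trans inf_le_right)).trans (cj_eq_self_of_mem hg1).le)) hn1
  have hBT2 : B ≤ T2 := by
    rw [← cj_eq_of_mem hm]
    exact (cj_mono m hBD1).trans hmT
  have hT2fam : T2 ∈ fam := ⟨hBT2, hT2RB, l2, hl2B,
    (cj_eq_of_mem hl2T).le.trans (hT2RB.trans inf_le_left), hn2⟩
  have hT2s : sc D0 ≤ sc T2 := hD1s.trans ((hscc m hm D1).trans (hscm _ _ hmT))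
  have hgoodLt : ∀ D : Subgroup G, D ≤ RB → B ≤ D →
      (sc T2 < sc D ∨ sc T2 ≤ sc D ∧ Nat.card T2 < Nat.card D) →
      ∀ g ∈ LB, cj g D ≤ (S : Subgroup G) → Realised H D g := by
    intro D hDRB hBD hlt g hg hgS
    by_contra hn
    have hD : D ∈ fam := ⟨hBD, hDRB, g, hg, hgS, hn⟩
    rcases hlt with hlt | ⟨hle, hlt⟩
    · exact absurd (hD0max D hD) (not_le.2 (lt_of_le_of_lt hT2s hlt))
    · have h1 := hD1max T2 ⟨hT2fam, hT2s⟩
      have h2 := hD1max D ⟨hD, hT2s.trans hle⟩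
      have h3 : Nat.card D1 ≤ Nat.card T2 :=
        (card_cj m D1).ge.trans (card_le_of_le hmT)
      omega
  -- the elements in `T2`, and one outside normalizing what they generate
  let sB : Set G := {g | g ∈ RB ∧ Quad B Zi g}
  set X0 := closure (sB ∩ (T2 : Set G)) with hX0
  have hX0T2 : X0 ≤ T2 := (closure_le _).2 fun z hz => hz.2
  have hsBT2 : ¬ sB ⊆ (T2 : Set G) := fun hsub =>
    hSig T2 l2 hBT2 hT2RB hl2B hl2T hn2 fun σ hσ hq => hsub ⟨hσ, hq⟩
  have hinvX : ∀ y ∈ LB, y ∈ normalizer (T2 : Set G) → y ∈ normalizer (X0 : Set G) := by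
    intro y hy hyT
    refine mem_normalizer_of_forall fun z hz => ?_
    have hz' : y * z * y⁻¹ ∈ cj y X0 := conj_mem_cj.2 hz
    refine (?_ : cj y X0 ≤ X0) hz'
    rw [cj, hX0, MonoidHom.map_closure]
    refine closure_mono ?_
    rintro - ⟨w, ⟨⟨hw, hwq⟩, hwT⟩, rfl⟩
    have h1 : y * w * y⁻¹ ∈ T2 := mem_normalizer_conj hyT hwT
    exact ⟨⟨hT2RB h1, quad_conj hy hwq⟩, h1⟩
  obtain ⟨σ0, ⟨hσ0RB, hσ0q⟩, hσ0X, hσ0N⟩ := exists_mem_normalizer (s := sB) hRBp
    (hX0T2.trans hT2RB) (fun z hz => hz.1)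
    (fun y hy z hz => ⟨mul_mem (mul_mem hy hz.1) (inv_mem hy), quad_conj hy.2 hz.2⟩)
    (le_antisymm ((closure_le _).2 fun z hz => hz.2)
      (closure_mono fun z hz => ⟨hz.1, subset_closure hz⟩))
    (fun hsub => hsBT2 fun z hz => hX0T2 (hsub hz))
  set R2 := RB ⊓ normalizer (T2 : Set G) with hR2
  have hT2ne : T2 ≠ RB := fun h => hsBT2 fun z hz => h ▸ hz.1
  have hT2R2 : T2 < R2 := lt_normalizer_inf hRBp (lt_of_le_of_ne hT2RB hT2ne)
  set L2 := LB ⊓ normalizer (X0 : Set G) with hL2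
  have hR2L2 : R2 ≤ RB ⊓ normalizer (X0 : Set G) := fun z hz =>
    ⟨hz.1, hinvX z hz.1.2 hz.2⟩
  -- well placed: `S` contains a Sylow subgroup of `L2`
  obtain ⟨P2, hP2, hP2L, hP2p, hP2i⟩ := exists_sylow_ge
    (hRBp.to_le inf_le_left : IsPGroup p (RB ⊓ normalizer (X0 : Set G) : Subgroup G))
    (inf_le_inf_right _ inf_le_right : RB ⊓ normalizer (X0 : Set G) ≤ L2)
  obtain ⟨g, hg, hgP⟩ := exists_conj_le hP2p (hP2L.trans inf_le_left) hRBp inf_le_right hRB
  have hgR2 : cj g R2 ≤ RB := (cj_mono g (hR2L2.trans hP2)).trans hgP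
  have hgT : Realised H T2 g := (hgoodLt R2 inf_le_left (hBT2.trans hT2R2.le)
    (Or.inr ⟨hscm _ _ hT2R2.le, card_lt_card hT2R2⟩) g hg
    (hgR2.trans inf_le_left)).mono hT2R2.le
  set T := cj g T2 with hT
  set l := g * l2 * g⁻¹ with hl
  set X := cj g X0 with hX
  set σ := g * σ0 * g⁻¹ with hσ
  have hlB : l ∈ LB := mul_mem (mul_mem hg hl2B) (inv_mem hg)
  have hlT : l ∈ normalizer (T : Set G) := conj_mem_normalizer_cj hl2T
  have hn : ¬ Realised H T l := not_realised_conj hl2T hn2 hgT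
  have hlX : l ∈ normalizer (X : Set G) := conj_mem_normalizer_cj (hinvX l2 hl2B hl2T)
  have hTRB : T ≤ RB := (cj_mono g hT2R2.le).trans hgR2
  have hBT : B ≤ T := (cj_eq_of_mem hg).ge.trans (cj_mono g hBT2)
  have hXT : X ≤ T := cj_mono g hX0T2
  have hσq : Quad B Zi σ := quad_conj hg hσ0q
  set L := LB ⊓ normalizer (X : Set G) with hL
  have hσN0 : σ0 ∈ RB ⊓ normalizer (X0 : Set G) := ⟨hσ0RB, hσ0N⟩
  have hσR : σ ∈ (S : Subgroup G) ⊓ L := by
    have h1 : σ ∈ RB := hgP (conj_mem_cj.2 (hP2 hσN0))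
    exact ⟨h1.1, h1.2, conj_mem_normalizer_cj hσ0N⟩
  have hσT : σ ∉ T := fun h => hσ0X (subset_closure ⟨⟨hσ0RB, hσ0q⟩, conj_mem_cj.1 h⟩)
  have hTL : T ≤ L := by
    intro z hz
    obtain ⟨z', hz', rfl⟩ := hz
    exact ⟨(hTRB ⟨z', hz', rfl⟩).2,
      conj_mem_normalizer_cj (hinvX z' (hT2RB hz').2 (le_normalizer hz'))⟩
  have hTS : T ≤ (S : Subgroup G) := hTRB.trans inf_le_left
  have hXS : X ≤ (S : Subgroup G) := hXT.trans hTS
  have hRL : ¬ p ∣ ((S : Subgroup G) ⊓ L).relIndex L := by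
    have hcjL : cj g L2 = L := by
      rw [hL2, cj_inf, cj_eq_self_of_mem hg, cj_normalizer]
    have hle : cj g P2 ≤ (S : Subgroup G) ⊓ L :=
      le_inf (hgP.trans inf_le_left) ((cj_mono g hP2L).trans hcjL.le)
    intro h
    apply hP2i
    have h2 := h.trans (relIndex_dvd_of_le_left L hle)
    rwa [← hcjL, relIndex_map_map_of_injective _ _ (MulEquiv.injective _)] at h2
  -- the section
  set gens : Set G := {z | ∃ m ∈ L, ∃ z0 ∈ Zt, z = m * z0 * m⁻¹} with hgens
  set W1 := closure gens with hW1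
  have hZtW1 : Zt ≤ W1 := fun z hz => subset_closure ⟨1, one_mem _, z, hz, by simp⟩
  have hW1B : W1 ≤ B := by
    rw [hW1, closure_le]
    rintro - ⟨m', hm', z0, hz0, rfl⟩
    exact mem_normalizer_conj hm'.1 (hZtB hz0)
  have hLW1 : L ≤ normalizer (W1 : Set G) := by
    intro y hy
    refine mem_normalizer_of_forall fun z hz => ?_
    refine (?_ : cj y W1 ≤ W1) (conj_mem_cj.2 hz)
    rw [cj, hW1, MonoidHom.map_closure]
    refine closure_mono ?_
    rintro - ⟨-, ⟨m', hm', z0, hz0, rfl⟩, rfl⟩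
    refine ⟨y * m', mul_mem hy hm', z0, hz0, ?_⟩
    simp [mul_assoc]
  set π := QuotientGroup.mk' Zi with hπ
  have hpow : ∀ w ∈ W1, w ^ p ∈ Zi := by
    intro w hw
    suffices h : w ∈ B ∧ π w ^ p = 1 by
      rw [← QuotientGroup.eq_one_iff, QuotientGroup.mk_pow]
      exact h.2
    induction hw using closure_induction with
    | mem w hw =>
      obtain ⟨m', hm', z0, hz0, rfl⟩ := hw
      refine ⟨mem_normalizer_conj hm'.1 (hZtB hz0), ?_⟩
      have h0 : π (z0 ^ p) = 1 := (QuotientGroup.eq_one_iff _).2 (hZtp z0 hz0)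
      rw [map_mul, map_mul, map_inv, conj_pow, ← map_pow, h0, mul_one, mul_inv_cancel]
    | one => exact ⟨one_mem _, by rw [map_one, one_pow]⟩
    | mul a b _ _ ha hb =>
      refine ⟨mul_mem ha.1 hb.1, ?_⟩
      have hc : Commute (π a) (π b) := commute_mk_iff.2 (by
        simpa [commutatorElement_def] using hBab a ha.1 b hb.1)
      rw [map_mul, hc.mul_pow, ha.2, hb.2, one_mul]
    | inv a _ ha => exact ⟨inv_mem ha.1, by rw [map_inv, inv_pow, ha.2, inv_one]⟩
  have htriv : ∀ t ∈ B ⊔ X, ∀ w ∈ W1, ⁅t, w⁆ ∈ Zi := by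
    have hXgen : ∀ x ∈ X, ∀ z ∈ gens, Commute (π x) (π z) := by
      rintro x hx - ⟨m', hm', z0, hz0, rfl⟩
      have hx' : m'⁻¹ * x * m' ∈ X := by
        simpa using mem_normalizer_conj (inv_mem hm'.2) hx
      have h1 := hcent X (S.2.to_le hXS) (hXS.trans hSZt) _ hx' z0 hz0
      have h2 : Commute (π (m'⁻¹ * x * m')) (π z0) := commute_mk_iff.2 (by
        simpa [commutatorElement_def] using h1)
      have h3 := h2.conj (π m')
      simpa [mul_assoc] using h3
    have hCW : B ⊔ X ≤ (centralizer ((W1.map π : Subgroup (G ⧸ Zi)) : Set (G ⧸ Zi))).comap π := by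
      refine sup_le (fun b hb => ?_) (fun x hx => ?_) <;>
      · rw [mem_comap, mem_centralizer_iff]
        rintro - ⟨w, hw, rfl⟩
        first
          | exact (commute_mk_iff.2 (by
              simpa [commutatorElement_def] using hBab w (hW1B hw) b hb)).eq
          | (induction hw using closure_induction with
            | mem z hz => exact (hXgen x hx z hz).symm.eq
            | one => simp
            | mul a b _ _ ha hb =>
              rw [map_mul]; exact (Commute.mul_left (ha : Commute _ _) (hb : Commute _ _)).eq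
            | inv a _ ha => rw [map_inv]; exact (Commute.inv_left (ha : Commute _ _)).eq)
    intro t ht w hw
    have h1 : π w * π t = π t * π w :=
      mem_centralizer_iff.1 (mem_comap.1 (hCW ht)) _ ⟨w, hw, rfl⟩
    simpa [commutatorElement_def] using commute_mk_iff.1 (Commute.symm h1)
  have hLB' : L ≤ LB := inf_le_left
  -- fusion of the big subgroups is realised
  have hgood : ∀ D : Subgroup G, D ≤ (S : Subgroup G) ⊓ L → B ⊔ X ≤ D →
      (∃ m ∈ L, m * σ * m⁻¹ ∈ D) → ∀ g' ∈ L, cj g' D ≤ (S : Subgroup G) → Realised H D g' := by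
    intro D hD hTD ⟨m', hm', hmD⟩ g' hg' hg'S
    have hDRB : D ≤ RB := hD.trans (inf_le_inf_left _ hLB')
    refine hgoodLt D hDRB (le_sup_left.trans hTD) (Or.inl ?_) g' (hLB' hg') hg'S
    refine lt_of_lt_of_le ?_ (le_refl (sc D))
    have hsub : (fun z => g * z * g⁻¹) '' {z | z ∈ T2 ∧ Quad B Zi z} ⊆
        {z | z ∈ D ∧ Quad B Zi z} := by
      rintro - ⟨z, ⟨hz, hzq⟩, rfl⟩
      exact ⟨hTD (mem_sup_right (conj_mem_cj.2 (subset_closure ⟨⟨hT2RB hz, hzq⟩, hz⟩))),
        quad_conj hg hzq⟩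
    have hnotin : m' * σ * m'⁻¹ ∉ (fun z => g * z * g⁻¹) '' {z | z ∈ T2 ∧ Quad B Zi z} := by
      rintro ⟨z, ⟨hz, hzq⟩, he⟩
      have h1 : m' * σ * m'⁻¹ ∈ X := by
        rw [← he]
        exact conj_mem_cj.2 (subset_closure ⟨⟨hT2RB hz, hzq⟩, hz⟩)
      exact hσT (hXT (by simpa [mul_assoc] using mem_normalizer_conj (inv_mem hm'.2) h1))
    calc sc T2 = Set.ncard ((fun z => g * z * g⁻¹) '' {z | z ∈ T2 ∧ Quad B Zi z}) :=
          (Set.ncard_image_of_injective _
            fun a b h => mul_left_cancel (mul_right_cancel h)).symm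
      _ < sc D := Set.ncard_lt_ncard (Set.ssubset_iff_of_subset hsub |>.2
          ⟨_, ⟨hmD, quad_conj hm'.1 hσq⟩, hnotin⟩) (Set.toFinite _)
  have hXn : L ≤ normalizer (X : Set G) := inf_le_right
  have hT0n : L ≤ normalizer ((B ⊔ X : Subgroup G) : Set G) :=
    Modules.normalizes_sup inf_le_left hXn
  have hT0S : B ⊔ X ≤ (S : Subgroup G) := sup_le hBS hXS
  have hT0L : B ⊔ X ≤ L := sup_le (hBT.trans hTL) (hXT.trans hTL)
  have hlL : l ∈ L := ⟨hlB, hlX⟩
  have hW1Z : ¬ W1 ≤ zj S := by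
    intro hle
    refine hn (realised_of_normal S hyp hSZt hKt (C := centralizer (W1 : Set G))
      (centralizer_le_normalizer _) (Modules.normalizes_centralizer le_rfl)
      ((centralizer_le hZtW1).trans (centralizer_le_normalizer _)) ?_ hTS
      (hTL.trans hLW1) (hLW1 hlL) ((cj_eq_of_mem hlT).le.trans hTS))
    exact le_centralizer_iff.1 (hle.trans inf_le_right)
  have hmove : ∃ l' ∈ L, ∃ u ∈ zj S ⊓ W1,
      l' * σ * l'⁻¹ * u * (l' * σ * l'⁻¹)⁻¹ ∉ zj S ⊓ W1 := by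
    by_contra hall
    push Not at hall
    set cl := closure {z : G | ∃ l' ∈ L, z = l' * σ * l'⁻¹} with hcl
    have hclL : cl ≤ L := by
      rw [hcl, closure_le]
      rintro - ⟨l', hl', rfl⟩
      exact mul_mem (mul_mem hl' hσR.2) (inv_mem hl')
    set U := zj S ⊓ W1 with hU
    have hclU : cl ≤ normalizer (U : Set G) := by
      rw [hcl, closure_le]
      rintro - ⟨l', hl', rfl⟩
      exact mem_normalizer_of_forall fun u hu => hall l' hl' u hu
    have hLcl : L ≤ normalizer (cl : Set G) := by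
      intro y hy
      refine mem_normalizer_of_forall fun z hz => ?_
      refine (?_ : cj y cl ≤ cl) (conj_mem_cj.2 hz)
      rw [cj, hcl, MonoidHom.map_closure]
      refine closure_mono ?_
      rintro - ⟨-, ⟨l', hl', rfl⟩, rfl⟩
      exact ⟨y * l', mul_mem hy hl', by simp [mul_assoc]⟩
    set K := (B ⊔ X) ⊔ cl with hK
    have hKL : K ≤ L := sup_le hT0L hclL
    have hLK : L ≤ normalizer (K : Set G) := Modules.normalizes_sup hT0n hLcl
    set P := ((S : Subgroup G) ⊓ L) ⊓ K with hP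
    have hPi : ¬ p ∣ P.relIndex K := not_dvd_relIndex_inf hKL hLK hRL
    have hPT0 : B ⊔ X ≤ P := le_inf (le_inf hT0S hT0L) le_sup_left
    have hKU : K ≤ normalizer (U : Set G) := by
      refine sup_le (fun t ht => mem_normalizer_of_forall fun u hu => ?_) hclU
      exact ⟨mem_normalizer_conj (le_nz S (hT0S ht)) hu.1,
        mem_normalizer_conj (hLW1 (hT0L ht)) hu.2⟩
    have hσP : σ ∈ P := ⟨⟨hσR.1, hσR.2⟩,
      mem_sup_right (subset_closure ⟨1, one_mem _, by simp⟩)⟩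
    have hLU : ∀ y ∈ L, y ∈ normalizer (U : Set G) := by
      intro y hy
      obtain ⟨f, hf, hfy⟩ := exists_frattini (P := P) (hLK hy) (S.2.to_le (inf_le_left.trans
        inf_le_left)) inf_le_right hPi
      have hfyL : f * y ∈ L := mul_mem (hKL hf) hy
      obtain ⟨k, hk, hag⟩ := hgood P inf_le_left hPT0 ⟨1, one_mem _, by simpa using hσP⟩
        (f * y) hfyL ((cj_eq_of_mem hfy).le.trans (inf_le_left.trans inf_le_left))
      have h1 : f * y ∈ normalizer (U : Set G) := by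
        refine mem_normalizer_of_forall fun u hu => ⟨?_, mem_normalizer_conj (hLW1 hfyL) hu.2⟩
        rw [hag u (hPT0 (mem_sup_left (hW1B hu.2)))]
        exact mem_normalizer_conj hk hu.1
      have := mul_mem (inv_mem (hKU hf)) h1
      simpa using this
    refine hW1Z (le_trans (?_ : W1 ≤ U) inf_le_left)
    rw [hW1, closure_le]
    rintro - ⟨m', hm', z0, hz0, rfl⟩
    exact mem_normalizer_conj (hLU m' hm') ⟨hZtZ hz0, hZtW1 hz0⟩
  exact concl_of_quadratic (p := p) hp2 S (H := H) (Z := zj S) (L := L) (T0 := B ⊔ X) (W0 := Zi)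
    (W1 := W1) (x := σ) (le_nz S) le_rfl (zj_comm S) hT0L hT0n hT0S
    (hW1B.trans le_sup_left) (hZiZt.trans hZtW1) hZiZ
    (fun y _ => normalizer_eq_top (H := Zi) ▸ mem_top y) hLW1
    (fun v hv w hw => hBab v (hW1B hv) w (hW1B hw)) hpow htriv hσR.2 hσR.1
    (fun w hw => hσq w (hW1B hw)) hRL hgood hmove

end Cfsg.Agent.ZJFail
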