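import Cfsg.Agent.ZJFail.Step
import Cfsg.Agent.ZJFail.Core
import Cfsg.Agent.Modules.Thompson
import Cfsg.Agent.Modules.Fixed
import Cfsg.Agent.PSolv.OmegaCenter

/-!
The inductive hypothesis and the basic consequences of a normalizer of a subgroup containing
`J(S)`.
-/

set_option autoImplicit false
set_option linter.style.haveILetI false
set_option linter.unusedSectionVars false

namespace Cfsg.Agent.ZJFail

open Subgroup Cfsg.Agent.Fusion

variable {G : Type*} [Group G] [Finite G] {p : ℕ} [hp : Fact p.Prime]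

/-- `Z(J(S))`. -/
abbrev zj (S : Sylow p G) : Subgroup G := Cfsg.centerThompsonAOf (S : Subgroup G)

/-- `N(Z(J(S)))`. -/
abbrev nz (S : Sylow p G) : Subgroup G := normalizer (zj S : Set G)

/-- Fusion inside proper overgroups of `S` is realised by `N(Z(J(S)))`. -/
def Hyp (S : Sylow p G) : Prop :=
  ∀ K : Subgroup G, (S : Subgroup G) ≤ K → K ≠ ⊤ → ∀ D : Subgroup G, D ≤ (S : Subgroup G) →
    ∀ g ∈ K, cj g D ≤ (S : Subgroup G) → Realised (nz S) D g

theorem le_nz (S : Sylow p G) : (S : Subgroup G) ≤ nz S :=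
  le_normalizer.trans (Modules.normalizer_le_normalizer_centerThompsonAOf (S : Subgroup G))

theorem normalizer_le_nz (S : Sylow p G) : normalizer ((S : Subgroup G) : Set G) ≤ nz S :=
  Modules.normalizer_le_normalizer_centerThompsonAOf (S : Subgroup G)

theorem zj_le (S : Sylow p G) : zj S ≤ (S : Subgroup G) := Modules.centerThompsonAOf_le _

theorem zj_comm (S : Sylow p G) : ∀ a ∈ zj S, ∀ b ∈ zj S, a * b = b * a :=
  Modules.comm_iff.1 (Modules.centerThompsonAOf_comm _)

theorem commute_mk_iff {N : Subgroup G} [N.Normal] {a b : G} :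
    Commute (QuotientGroup.mk' N a) (QuotientGroup.mk' N b) ↔
      a * b * a⁻¹ * b⁻¹ ∈ N := by
  rw [← QuotientGroup.eq_one_iff, ← QuotientGroup.mk'_apply, map_mul, map_mul, map_mul, map_inv,
    map_inv, mul_inv_eq_one, mul_inv_eq_iff_eq_mul]
  rfl

omit [Finite G] in
theorem conj_pow_eq {g a : G} (n : ℕ) : (g * a * g⁻¹) ^ n = g * a ^ n * g⁻¹ := conj_pow

/-- The trace of a Sylow subgroup on a normal subgroup. -/
theorem not_dvd_relIndex_inf {P K L : Subgroup G} (hKL : K ≤ L)
    (hLK : L ≤ normalizer (K : Set G)) (hP : ¬ p ∣ P.relIndex L) :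
    ¬ p ∣ (P ⊓ K).relIndex K := by
  haveI : (K.subgroupOf L).Normal := normal_subgroupOf_of_le_normalizer hLK
  rw [inf_relIndex_right, ← relIndex_subgroupOf hKL]
  exact fun h => hP (h.trans
    (PSolv.relIndex_dvd_index_of_normal_right (P.subgroupOf L) (K.subgroupOf L)))

/-- The Frattini argument, elementwise. -/
theorem exists_frattini {P K : Subgroup G} {g : G} (hg : g ∈ normalizer (K : Set G))
    (hP : IsPGroup p P) (hPK : P ≤ K) (hPi : ¬ p ∣ P.relIndex K) :
    ∃ f ∈ K, f * g ∈ normalizer (P : Set G) := by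
  obtain ⟨f, hf, hfP⟩ := exists_conj_of_relIndex (isPGroup_cj hP g) hP
    ((cj_mono g hPK).trans (cj_eq_of_mem hg).le) hPK
    (by rwa [← cj_eq_of_mem hg, relIndex_map_map_of_injective _ _ (MulEquiv.injective _)]) hPi
  exact ⟨f, hf, by rw [← cj_eq_iff_mem_normalizer, ← cj_cj]; exact hfP⟩

/-- Unrealised local fusion survives conjugation by a realised element. -/
theorem not_realised_conj {H T : Subgroup G} {l g : G} (hl : l ∈ normalizer (T : Set G))
    (hn : ¬ Realised H T l) (hg : Realised H T g) : ¬ Realised H (cj g T) (g * l * g⁻¹) := by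
  intro h
  apply hn
  have h1 : Realised H T (g * l * g⁻¹ * g) := hg.comp h
  have h2 : Realised H (cj (g * l * g⁻¹ * g) T) g⁻¹ := by
    rw [show g * l * g⁻¹ * g = g * l by group, ← cj_cj, cj_eq_of_mem hl]
    exact hg.inv
  have h3 := h1.comp h2
  rwa [show g⁻¹ * (g * l * g⁻¹ * g) = l by group] at h3

omit [Finite G] in
theorem conj_mem_normalizer_cj {T : Subgroup G} {l g : G} (hl : l ∈ normalizer (T : Set G)) :
    g * l * g⁻¹ ∈ normalizer (cj g T : Set G) := by
  rw [← cj_normalizer]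
  exact conj_mem_cj.2 hl

/-- An element carrying `J(S)` into `S` normalizes `Z(J(S))`. -/
theorem mem_nz_of_conj (S : Sylow p G) {g : G}
    (hg : cj g (Cfsg.thompsonSubgroupAOf (S : Subgroup G)) ≤ (S : Subgroup G)) : g ∈ nz S := by
  set J := Cfsg.thompsonSubgroupAOf (S : Subgroup G) with hJ
  have hle : cj g J ≤ J := by
    rw [cj, hJ, map_le_iff_le_comap, Modules.thompsonSubgroupAOf_eq_sSup]
    refine sSup_le fun A hA => map_le_iff_le_comap.1 ?_
    rw [← Modules.thompsonSubgroupAOf_eq_sSup]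
    refine Modules.le_thompsonSubgroupAOf ⟨(cj_mono g ?_).trans hg, Modules.comm_map _ hA.2.1, ?_⟩
    · exact Modules.le_thompsonSubgroupAOf hA
    · intro C hC hC'
      rw [card_cj]
      exact hA.2.2 C hC hC'
  have hgJ : g ∈ normalizer (J : Set G) :=
    cj_eq_iff_mem_normalizer.1 (eq_of_le_of_card_ge hle (card_cj g J).ge)
  exact inf_normalizer_le_normalizer_inf
    ⟨hgJ, (Modules.normalizes_centralizer (V := J) (A := normalizer (J : Set G)) le_rfl) hgJ⟩

/-- Fusion inside the normalizer of a subgroup `C` containing `J(S)` is realised, when `C`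
normalizes a subgroup whose normalizer is a proper overgroup of `S`. -/
theorem realised_of_normal (S : Sylow p G) (hyp : Hyp S) {Zt C NB T : Subgroup G} {g : G}
    (hSZt : (S : Subgroup G) ≤ normalizer (Zt : Set G)) (hZt : normalizer (Zt : Set G) ≠ ⊤)
    (hCN : C ≤ NB) (hNC : NB ≤ normalizer (C : Set G)) (hCZt : C ≤ normalizer (Zt : Set G))
    (hJC : Cfsg.thompsonSubgroupAOf (S : Subgroup G) ≤ C) (hTS : T ≤ (S : Subgroup G))
    (hTN : T ≤ NB) (hg : g ∈ NB) (hgT : cj g T ≤ (S : Subgroup G)) :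
    Realised (nz S) T g := by
  set J := Cfsg.thompsonSubgroupAOf (S : Subgroup G) with hJ
  have hJS : J ≤ (S : Subgroup G) := Modules.thompsonSubgroupAOf_le _
  set T' := cj g T with hT'
  have hT'N : T' ≤ NB := (cj_mono g hTN).trans (cj_eq_self_of_mem hg).le
  obtain ⟨P, hUP, hPN, hP, hPi⟩ := exists_sylow_ge
    (S.2.to_le (sup_le (sup_le hJS hTS) hgT) : IsPGroup p (J ⊔ T ⊔ T' : Subgroup G))
    (sup_le (sup_le (hJC.trans hCN) hTN) hT'N)
  set PC := P ⊓ C with hPC
  have hPCi : ¬ p ∣ PC.relIndex C := not_dvd_relIndex_inf hCN hNC hPi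
  have hJPC : J ≤ PC := le_inf ((le_sup_left.trans le_sup_left).trans hUP) hJC
  have hPnorm : P ≤ normalizer (PC : Set G) :=
    Modules.normalizes_inf le_normalizer (hPN.trans hNC)
  have hSub : ∀ n ∈ normalizer (PC : Set G), n ∈ nz S := by
    intro n hn
    obtain ⟨g0, -, hg0⟩ := exists_conj_le (hP.to_le inf_le_left : IsPGroup p PC)
      (le_top : PC ≤ ⊤) S.2 le_top (by rw [relIndex_top_right]; exact S.not_dvd_index)
    have h1 : g0 ∈ nz S := mem_nz_of_conj S ((cj_mono g0 hJPC).trans hg0)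
    have h2 : g0 * n ∈ nz S := mem_nz_of_conj S (by
      rw [← cj_cj]
      exact (cj_mono g0 ((cj_mono n hJPC).trans (cj_eq_of_mem hn).le)).trans hg0)
    simpa using mul_mem (inv_mem h1) h2
  obtain ⟨c', hc', hn⟩ := exists_frattini (hNC hg) (hP.to_le inf_le_left) inf_le_right hPCi
  set n := c' * g with hn'
  set T'' := cj n T with hT''
  set N' := (C ⊔ T') ⊓ normalizer (PC : Set G) with hN'
  have hT''N : T'' ≤ N' := by
    refine le_inf ?_ ?_
    · rw [hT'', hn', ← cj_cj, ← hT']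
      exact (cj_mono c' (le_sup_right : T' ≤ C ⊔ T')).trans
        (cj_eq_self_of_mem (mem_sup_left hc')).le
    · exact ((cj_mono n ((le_sup_right.trans le_sup_left).trans (hUP.trans hPnorm))).trans
        (cj_eq_self_of_mem hn).le)
  obtain ⟨Q, hQ0, hQN, hQ, hQi⟩ := exists_sylow_ge
    (S.2.to_le (sup_le hJS hgT) : IsPGroup p (J ⊔ T' : Subgroup G))
    (le_inf (sup_le_sup_right hJC T') ((sup_le (le_sup_left.trans le_sup_left) le_sup_right).trans
      (hUP.trans hPnorm)) : J ⊔ T' ≤ N')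
  obtain ⟨q, hq, hqT⟩ := exists_conj_le (isPGroup_cj (S.2.to_le hTS) n) hT''N hQ hQN hQi
  have hN'Kt : N' ≤ normalizer (Zt : Set G) :=
    inf_le_left.trans (sup_le hCZt (hgT.trans hSZt))
  obtain ⟨k2, hk2, hk2Q⟩ := exists_conj_le hQ (hQN.trans hN'Kt) S.2 hSZt
    (fun h => S.not_dvd_index (h.trans (relIndex_dvd_index_of_le hSZt)))
  have hk2H : k2 ∈ nz S := mem_nz_of_conj S ((cj_mono k2 (le_sup_left.trans hQ0)).trans hk2Q)
  have hn1 : k2 * q * n ∈ nz S := mul_mem (mul_mem hk2H (hSub q hq.2)) (hSub n hn)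
  have hT1 : cj (k2 * q * n) T ≤ (S : Subgroup G) := by
    rw [mul_assoc, ← cj_cj, ← cj_cj]
    exact (cj_mono k2 hqT).trans hk2Q
  have hc : c'⁻¹ * (k2 * q)⁻¹ ∈ normalizer (Zt : Set G) :=
    mul_mem (inv_mem (hCZt hc')) (inv_mem (mul_mem hk2 (hN'Kt hq)))
  have he : c'⁻¹ * (k2 * q)⁻¹ * (k2 * q * n) = g := by rw [hn']; group
  have h := Realised.comp (Realised.of_mem (D := T) hn1)
    (hyp _ hSZt hZt _ hT1 _ hc (by rw [cj_cj, he]; exact hgT))
  rwa [he] at h

end Cfsg.Agent.ZJFail
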