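import Cfsg.Agent.Fusion.Alperin

/-!
If some conjugation between subgroups of a Sylow subgroup is not realised by a relation closed under
composition, then it already fails inside a normalizer with a large Sylow subgroup.
-/

set_option autoImplicit false

namespace Cfsg.Agent.ZJFail

open Subgroup Cfsg.Agent.Fusion

variable {G : Type*} [Group G] [Finite G] {p : ℕ} [Fact p.Prime]

theorem exists_unrealised (P : Sylow p G) (Rel : Subgroup G → G → Prop)
    (hone : ∀ D, D ≤ (P : Subgroup G) → Rel D 1)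
    (hmono : ∀ D D' g, D' ≤ D → Rel D g → Rel D' g)
    (hcomp : ∀ D a b, Rel D b → Rel (cj b D) a → Rel D (a * b))
    {D : Subgroup G} {g : G} (hD : D ≤ (P : Subgroup G)) (hg : cj g D ≤ (P : Subgroup G))
    (hn : ¬ Rel D g) :
    ∃ T : Subgroup G, T ≤ (P : Subgroup G) ∧
      ¬ p ∣ ((P : Subgroup G) ⊓ normalizer (T : Set G)).relIndex (normalizer (T : Set G)) ∧
      (∃ l ∈ normalizer (T : Set G), ¬ Rel T l) ∧ ∃ m : G, cj m D ≤ T := by
  have h : FusionChain P D g⁻¹ := exists_chain P hD (by rwa [inv_inv])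
  suffices key : ∀ {D : Subgroup G} {z : G}, FusionChain P D z → D ≤ (P : Subgroup G) →
      ¬ Rel D z⁻¹ →
      ∃ T : Subgroup G, T ≤ (P : Subgroup G) ∧
        ¬ p ∣ ((P : Subgroup G) ⊓ normalizer (T : Set G)).relIndex (normalizer (T : Set G)) ∧
        (∃ l ∈ normalizer (T : Set G), ¬ Rel T l) ∧ ∃ m : G, cj m D ≤ T from
    key h hD (by rwa [inv_inv])
  intro D z hz
  induction hz with
  | one D => exact fun hD h => absurd (by simpa using hone D hD) h
  | @step D R x y htame hx _ hDle _ ih =>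
    intro hD hn
    set T := (P : Subgroup G) ⊓ R with hT
    by_cases hx' : Rel T x⁻¹
    · have hD' : cj x⁻¹ D ≤ (P : Subgroup G) :=
        (cj_mono _ hDle).trans ((cj_eq_of_mem (inv_mem hx)).le.trans inf_le_left)
      have : ¬ Rel (cj x⁻¹ D) y⁻¹ := by
        intro h
        apply hn
        rw [mul_inv_rev]
        exact hcomp D _ _ (hmono T D _ hDle hx') h
      obtain ⟨T', h1, h2, h3, m, hm⟩ := ih hD' this
      exact ⟨T', h1, h2, h3, m * x⁻¹, by rwa [← cj_cj]⟩
    · exact ⟨T, inf_le_left, htame.1, ⟨x⁻¹, inv_mem hx, hx'⟩, 1, by rwa [cj_one]⟩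

/-- The same inside a subgroup. -/
theorem exists_unrealised_in {M P : Subgroup G} (hPM : P ≤ M) (hP : IsPGroup p P)
    (hPi : ¬ p ∣ P.relIndex M) (Rel : Subgroup G → G → Prop)
    (hone : ∀ D, D ≤ P → Rel D 1)
    (hmono : ∀ D D' g, D' ≤ D → Rel D g → Rel D' g)
    (hcomp : ∀ D a b, Rel D b → Rel (cj b D) a → Rel D (a * b))
    {D : Subgroup G} {g : G} (hgM : g ∈ M) (hD : D ≤ P) (hg : cj g D ≤ P) (hn : ¬ Rel D g) :
    ∃ T : Subgroup G, T ≤ P ∧
      ¬ p ∣ (P ⊓ normalizer (T : Set G)).relIndex (M ⊓ normalizer (T : Set G)) ∧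
      (∃ l ∈ M, l ∈ normalizer (T : Set G) ∧ ¬ Rel T l) ∧ ∃ m ∈ M, cj m D ≤ T := by
  set P' : Sylow p M := (hP.comap_subtype (K := M)).toSylow hPi with hP'
  have eP : (P' : Subgroup M).map M.subtype = P := map_subgroupOf_eq_of_le hPM
  have hcj : ∀ (m : M) (X : Subgroup M), (cj m X).map M.subtype = cj (m : G) (X.map M.subtype) := by
    intro m X
    rw [cj, cj, map_map, map_map]
    rfl
  set D' := D.subgroupOf M with hD'
  have eD : D'.map M.subtype = D := map_subgroupOf_eq_of_le (hD.trans hPM)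
  obtain ⟨T, hT, hTi, ⟨l, hl, hlR⟩, m, hm⟩ := exists_unrealised (p := p) P'
    (fun X x => Rel (X.map M.subtype) (x : G))
    (fun X hX => hone _ ((map_mono hX).trans eP.le))
    (fun X X' x h hr => hmono _ _ _ (map_mono h) hr)
    (fun X a b h1 h2 => hcomp _ _ _ h1 (by rw [← hcj]; exact h2))
    (D := D') (g := (⟨g, hgM⟩ : M)) (fun d hd => hD hd)
    (fun d hd => by
      obtain ⟨e, he, rfl⟩ := hd
      exact hg ⟨(e : G), he, rfl⟩)
    (by rw [eD]; exact hn)
  have hN : (normalizer (T : Set M)).map M.subtype =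
      M ⊓ normalizer ((T.map M.subtype : Subgroup G) : Set G) := by
    have h1 := Subgroup.subgroupOf_normalizer_eq (map_subtype_le T)
    simp only [subgroupOf, comap_map_eq_self_of_injective M.subtype_injective] at h1
    rw [← h1, map_comap_eq, range_subtype]
  refine ⟨T.map M.subtype, (map_mono hT).trans eP.le, ?_, ⟨l, l.2, ?_, hlR⟩, m, m.2, ?_⟩
  · rw [← eP, ← hN, show (P' : Subgroup M).map M.subtype ⊓ normalizer
      ((T.map M.subtype : Subgroup G) : Set G) = ((P' : Subgroup M) ⊓ normalizer (T : Set M)).map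
        M.subtype by
      rw [map_inf _ _ _ M.subtype_injective, hN, ← inf_assoc,
        inf_eq_left.2 (map_subtype_le (P' : Subgroup M))],
      relIndex_map_map_of_injective _ _ M.subtype_injective]
    exact hTi
  · exact ((hN.le (mem_map_of_mem M.subtype hl)) : (l : G) ∈ M ⊓ _).2
  · rw [← eD, ← hcj]
    exact map_mono hm

end Cfsg.Agent.ZJFail
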